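import Cfsg.Agent.Lib.Helper78.DefectZero
import Cfsg.Agent.Lib.Helper51.BlockCol
import Cfsg.Agent.S0143
import Cfsg.Agent.S0144

/-!
# Characters of prime power degree in the principal block of a simple group

* `vanish_of_coprime_simple`: Burnside's lemma in a simple group;
* `principal_not_ppow`: a nonprincipal character of the principal `p`-block of a non-abelian simple
  group never has `p`-power degree;
* `exists_principal_not_dvd`: for a `p`-singular `g` and a prime `q` there is a nonprincipal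
  character in the principal `p`-block with degree prime to `q` and not vanishing at `g`;
* `centralizer_sylow_prime`: a simple group of order `p^a q^b r` has self-centralizing Sylow
  `r`-subgroups (element form).
-/

set_option autoImplicit false
set_option linter.unusedSectionVars false
open Cfsg
open scoped ComplexConjugate
open Cfsg.Agent.Lib.Helper20 Cfsg.Agent.Lib.Helper81 Cfsg.Agent.Lib.Helper82

namespace Cfsg.Agent.Lib.Helper51

variable {G : Type*} [Group G] [Finite G] {p : ℕ} {M : Ideal AlgInt}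

/-- Burnside: in a non-commutative simple group a nonprincipal irreducible character vanishes at
each `z ≠ 1` whose class size is prime to the degree. -/
theorem vanish_of_coprime_simple [IsSimpleGroup G] (hnc : ¬ ∀ a b : G, a * b = b * a)
    (χ : IrrCharacter G) (hχ : χ ≠ oneIrr G) (z : G) (hz : z ≠ 1)
    (hcop : Nat.Coprime (charDegree (χ : G → ℂ)) (Subgroup.centralizer ({z} : Set G)).index) :
    (χ : G → ℂ) z = 0 := by
  obtain ⟨n, ρ, hρ, hχρ⟩ := χ.2
  have hne : ρ.character ≠ fun _ => 1 := by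
    intro h
    apply hχ
    apply Subtype.ext
    rw [← hχρ, h]
    rfl
  have h1 : (χ : G → ℂ) 1 = (n : ℂ) := by
    rw [← hχρ, Representation.char_one, Module.finrank_fin_fun]
  have hdeg : charDegree (χ : G → ℂ) = n := by
    have := isChar_one_eq (isIrr_isChar χ.2)
    rw [h1] at this
    exact_mod_cast this.symm
  have hcop' : Nat.Coprime (Module.finrank ℂ (Fin n → ℂ))
      (Subgroup.centralizer ({z} : Set G)).index := by
    rw [Module.finrank_fin_fun, ← hdeg]
    exact hcop
  rcases Cfsg.Agent.S0142.result ρ z hcop' with h0 | h0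
  · rw [← hχρ, h0]
  · obtain ⟨ω, hω⟩ := (Cfsg.Agent.S0138.result ρ z).mp h0
    exact (Cfsg.Agent.S0143.not_scalar hnc z hz ρ hρ hne ω hω).elim

/-- A nonprincipal character in the principal `p`-block of a non-commutative simple group
(of order divisible by `p`) does not have `p`-power degree. -/
theorem principal_not_ppow [IsSimpleGroup G] (hnc : ¬ ∀ a b : G, a * b = b * a)
    (hM : IsPModular p M) (hpG : p ∣ Nat.card G) (χ : IrrCharacter G)
    (hχB : χ ∈ principalBlock M G) (hχ : χ ≠ oneIrr G) (i : ℕ)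
    (hdeg : charDegree (χ : G → ℂ) = p ^ i) : False := by
  have : Fact p.Prime := ⟨hM.1⟩
  obtain ⟨S⟩ : Nonempty (Sylow p G) := inferInstance
  have hSnt : Nontrivial (S : Subgroup G) := by
    have h1 : p ∣ Nat.card (S : Subgroup G) := by
      rw [Sylow.card_eq_multiplicity]
      have hpos : 0 < (Nat.card G).factorization p :=
        hM.1.factorization_pos_of_dvd Nat.card_pos.ne' hpG
      exact dvd_pow_self p hpos.ne'
    have h2 : 1 < Nat.card (S : Subgroup G) :=
      lt_of_lt_of_le hM.1.one_lt (Nat.le_of_dvd Nat.card_pos h1)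
    exact Finite.one_lt_card_iff_nontrivial.1 h2
  have hcen : Nontrivial (Subgroup.center (S : Subgroup G)) := S.2.center_nontrivial
  obtain ⟨⟨z, hzc⟩, hz1⟩ := exists_ne (1 : Subgroup.center (S : Subgroup G))
  have hz1' : (z : G) ≠ 1 := by
    intro h
    apply hz1
    apply Subtype.ext
    apply Subtype.ext
    exact h
  have hle : (S : Subgroup G) ≤ Subgroup.centralizer ({(z : G)} : Set G) := by
    intro s hs
    rw [Subgroup.mem_centralizer_iff]
    intro y hy
    rw [Set.mem_singleton_iff] at hy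
    subst hy
    have := Subgroup.mem_center_iff.1 hzc ⟨s, hs⟩
    have h2 := congrArg (fun t : (S : Subgroup G) => (t : G)) this
    simpa using h2.symm
  have hnd : ¬ p ∣ (Subgroup.centralizer ({(z : G)} : Set G)).index := by
    intro h
    exact S.not_dvd_index (h.trans (Subgroup.index_dvd_of_le hle))
  have hcop : Nat.Coprime (charDegree (χ : G → ℂ))
      (Subgroup.centralizer ({(z : G)} : Set G)).index := by
    rw [hdeg]
    exact Nat.Coprime.pow_left i ((Nat.Prime.coprime_iff_not_dvd hM.1).2 hnd)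
  have h0 := vanish_of_coprime_simple hnc χ hχ z hz1' hcop
  have hb := hχB (z : G)
  simp only [centralChar, h0, mul_zero, zero_div, sub_zero, mul_one, div_one] at hb
  exact hnd ((memLocalIdeal_natCast_iff hM _).1 hb)

/-- For a `p`-singular element `g` and any prime `q`, the principal `p`-block contains a
nonprincipal character of degree prime to `q` which does not vanish at `g`. -/
theorem exists_principal_not_dvd (hM : IsPModular p M) (g : G) (hg : p ∣ orderOf g) (q : ℕ)
    (hq : q.Prime) : ∃ χ ∈ principalBlock M G, χ ≠ oneIrr G ∧ ¬ q ∣ charDegree (χ : G → ℂ) ∧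
      (χ : G → ℂ) g ≠ 0 := by
  classical
  have := Fintype.ofFinite G
  have := Cfsg.Agent.Lib.Helper20.finite_irrCharacter (G := G)
  have := Fintype.ofFinite (IrrCharacter G)
  by_contra hcon
  push Not at hcon
  obtain ⟨y, hy⟩ := exists_isPPart hM.1 g
  have hne := isPPart_ne_one_of_singular hg hy
  have h1 := block_orth hM (principalBlock M G) (Cfsg.Agent.S0936.isPBlock_principal M) hy
    (isPPart_one_of_regular (g := (1 : G))
      (by rw [orderOf_one]; exact hM.1.one_lt.ne' ∘ Nat.dvd_one.1))
    (by rw [isConj_one_left]; exact hne)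
  rw [finsum_mem_irr] at h1
  have key : ∀ χ : IrrCharacter G, χ ≠ oneIrr G → ∃ β : ℂ, IsIntegral ℤ β ∧
      (if χ ∈ principalBlock M G then (χ : G → ℂ) g * conj ((χ : G → ℂ) 1) else 0)
        = (q : ℂ) * β := by
    intro χ hχ
    by_cases hB : χ ∈ principalBlock M G
    · rw [if_pos hB]
      by_cases hqd : q ∣ charDegree (χ : G → ℂ)
      · obtain ⟨m, hm⟩ := hqd
        refine ⟨(m : ℂ) * (χ : G → ℂ) g, ?_, ?_⟩
        · exact (isIntegral_algebraMap (R := ℤ) (x := (m : ℤ))).mul
            (isCharacter_isIntegral (isIrr_isChar χ.2) g)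
        · rw [isChar_one_eq (isIrr_isChar χ.2), hm]
          simp only [map_natCast]
          push_cast
          ring
      · refine ⟨0, isIntegral_zero, ?_⟩
        rw [hcon χ hB hχ hqd]
        simp
    · rw [if_neg hB]
      exact ⟨0, isIntegral_zero, by simp⟩
  choose! β hβ1 hβ2 using key
  rw [← Finset.add_sum_erase Finset.univ _ (Finset.mem_univ (oneIrr G))] at h1
  have h2 : ∑ χ ∈ Finset.univ.erase (oneIrr G),
      (if χ ∈ principalBlock M G then (χ : G → ℂ) g * conj ((χ : G → ℂ) 1) else 0) =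
      (q : ℂ) * ∑ χ ∈ Finset.univ.erase (oneIrr G), β χ := by
    rw [Finset.mul_sum]
    refine Finset.sum_congr rfl fun χ hχ => ?_
    exact hβ2 χ (Finset.ne_of_mem_erase hχ)
  rw [h2, if_pos (oneIrr_mem hM)] at h1
  have h3 : IsIntegral ℤ (∑ χ ∈ Finset.univ.erase (oneIrr G), β χ) :=
    IsIntegral.sum _ fun χ hχ => hβ1 χ (Finset.ne_of_mem_erase hχ)
  have hq0 : (q : ℂ) ≠ 0 := by exact_mod_cast hq.ne_zero
  have h4 : ((1 : ℕ) : ℂ) / (q : ℂ) = - ∑ χ ∈ Finset.univ.erase (oneIrr G), β χ := by
    have h5 : (1 : ℂ) + (q : ℂ) * ∑ χ ∈ Finset.univ.erase (oneIrr G), β χ = 0 := by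
      simpa [oneIrr] using h1
    field_simp
    push_cast
    linear_combination h5
  have h5 : IsIntegral ℤ (((1 : ℕ) : ℂ) / (q : ℂ)) := by rw [h4]; exact h3.neg
  have h6 := Cfsg.Agent.Lib.Helper4.dvd_of_isIntegral_div hq.ne_zero h5
  exact hq.one_lt.ne' (Nat.dvd_one.mp h6)

/-- Core of the Brauer--Tuan type argument: a non-commutative simple group of order `s^a t^b r`
has no element of order divisible by `r s`. -/
theorem no_mixed_element [IsSimpleGroup G] (hnc : ¬ ∀ a b : G, a * b = b * a) (s t r a b : ℕ)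
    (hs : s.Prime) (ht : t.Prime) (hr : r.Prime) (hsr : s ≠ r) (htr : t ≠ r)
    (hcard : Nat.card G = s ^ a * t ^ b * r) (g : G) (hgs : s ∣ orderOf g) (hgr : r ∣ orderOf g) :
    False := by
  classical
  have := Fintype.ofFinite G
  obtain ⟨M, hM⟩ := Cfsg.Agent.Lib.Helper78.exists_isPModular hs
  obtain ⟨χ, hχB, hχ1, hχt, hχg⟩ := exists_principal_not_dvd hM g hgs t ht
  have hdvd : charDegree (χ : G → ℂ) ∣ s ^ a * t ^ b * r := by
    rw [← hcard]; exact isIrr_charDegree_dvd_card χ.2
  have hrd : ¬ r ∣ charDegree (χ : G → ℂ) := by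
    intro hrd
    obtain ⟨m, hm⟩ := hdvd
    apply hχg
    refine Cfsg.Agent.Lib.Helper78.vanish_of_defect_zero hr χ (m := m) (by rw [hcard, hm]) ?_ hgr
    intro hrm
    obtain ⟨k, hk⟩ := hrd
    obtain ⟨l, hl⟩ := hrm
    have h1 : s ^ a * t ^ b * r = (r * (k * l)) * r := by rw [hm, hk, hl]; ring
    have h2 : s ^ a * t ^ b = r * (k * l) := Nat.eq_of_mul_eq_mul_right hr.pos h1
    have h3 : r ∣ s ^ a * t ^ b := ⟨_, h2⟩
    rcases (Nat.Prime.dvd_mul hr).1 h3 with h4 | h4
    · exact hsr ((Nat.prime_dvd_prime_iff_eq hr hs).1 (hr.dvd_of_dvd_pow h4)).symm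
    · exact htr ((Nat.prime_dvd_prime_iff_eq hr ht).1 (hr.dvd_of_dvd_pow h4)).symm
  have hc1 : Nat.Coprime (charDegree (χ : G → ℂ)) r :=
    ((Nat.Prime.coprime_iff_not_dvd hr).2 hrd).symm
  have hc2 : Nat.Coprime (charDegree (χ : G → ℂ)) (t ^ b) :=
    Nat.Coprime.pow_right b ((Nat.Prime.coprime_iff_not_dvd ht).2 hχt).symm
  have hd2 : charDegree (χ : G → ℂ) ∣ s ^ a :=
    hc2.dvd_of_dvd_mul_right (hc1.dvd_of_dvd_mul_right hdvd)
  obtain ⟨i, -, hi⟩ := (Nat.dvd_prime_pow hs).1 hd2
  exact principal_not_ppow hnc hM (hgs.trans (orderOf_dvd_natCard g)) χ hχB hχ1 i hi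

/-- In a simple group of order `p^a q^b r` (distinct primes), an element of order `r` is
self-centralizing. -/
theorem centralizer_prime_elt [IsSimpleGroup G] (p q r a b : ℕ) (hp : p.Prime) (hq : q.Prime)
    (hr : r.Prime) (hpr : p ≠ r) (hqr : q ≠ r) (hcard : Nat.card G = p ^ a * q ^ b * r)
    (x : G) (hx : orderOf x = r) :
    Subgroup.centralizer ({x} : Set G) = Subgroup.zpowers x := by
  classical
  have hx1 : x ≠ 1 := by
    rintro rfl
    rw [orderOf_one] at hx
    exact hr.one_lt.ne hx
  by_cases hc : ∀ a b : G, a * b = b * a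
  · let _ : CommGroup G := { (inferInstance : Group G) with mul_comm := hc }
    have hprime : (Nat.card G).Prime := IsSimpleGroup.prime_card
    have : Fact (Nat.card G).Prime := ⟨hprime⟩
    have htop : Subgroup.zpowers x = ⊤ := zpowers_eq_top_of_prime_card rfl hx1
    rw [htop, eq_top_iff]
    intro y _
    rw [Subgroup.mem_centralizer_iff]
    intro z _
    exact hc z y
  have hle : Subgroup.zpowers x ≤ Subgroup.centralizer ({x} : Set G) := by
    rw [Subgroup.zpowers_le, Subgroup.mem_centralizer_iff]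
    intro y hy
    rw [Set.mem_singleton_iff] at hy
    rw [hy]
  symm
  apply Subgroup.eq_of_le_of_card_ge hle
  rw [Nat.card_zpowers, hx]
  by_contra hlt
  push Not at hlt
  set C := Subgroup.centralizer ({x} : Set G) with hC
  have hCd : Nat.card C ∣ p ^ a * q ^ b * r := hcard ▸ Subgroup.card_subgroup_dvd_card C
  have hrC : r ∣ Nat.card C := by
    have := Subgroup.card_dvd_of_le hle
    rwa [Nat.card_zpowers, hx] at this
  obtain ⟨m, hm⟩ := hrC
  have hm1 : 1 < m := by
    rw [hm] at hlt
    by_contra h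
    push Not at h
    have : r * m ≤ r * 1 := Nat.mul_le_mul_left r h
    omega
  have hmd : m ∣ p ^ a * q ^ b := by
    rw [hm, mul_comm r m] at hCd
    exact Nat.dvd_of_mul_dvd_mul_right hr.pos hCd
  obtain ⟨s, hs, hsm⟩ := Nat.exists_prime_and_dvd hm1.ne'
  have hsC : s ∣ Nat.card C := by rw [hm]; exact hsm.mul_left r
  have : Fact s.Prime := ⟨hs⟩
  obtain ⟨⟨y, hyC⟩, hy⟩ := exists_prime_orderOf_dvd_card' s hsC
  have hy' : orderOf y = s := by
    rw [← hy]; exact (Subgroup.orderOf_mk y hyC).symm
  have hcomm : Commute x y := by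
    have := Subgroup.mem_centralizer_iff.1 hyC x (Set.mem_singleton x)
    exact this
  have hspq : s = p ∨ s = q := by
    rcases (Nat.Prime.dvd_mul hs).1 (hsm.trans hmd) with h | h
    · exact Or.inl ((Nat.prime_dvd_prime_iff_eq hs hp).1 (hs.dvd_of_dvd_pow h))
    · exact Or.inr ((Nat.prime_dvd_prime_iff_eq hs hq).1 (hs.dvd_of_dvd_pow h))
  have hsr : s ≠ r := by
    rcases hspq with h | h
    · rw [h]; exact hpr
    · rw [h]; exact hqr
  have hord : orderOf (x * y) = r * s := by
    rw [hcomm.orderOf_mul_eq_mul_orderOf_of_coprime, hx, hy']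
    rw [hx, hy']
    exact (Nat.coprime_primes hr hs).2 hsr.symm
  rcases hspq with h | h
  · subst h
    exact no_mixed_element hc s q r a b hs hq hr hpr hqr hcard (x * y)
      (hord ▸ Dvd.intro_left r rfl) (hord ▸ Dvd.intro s rfl)
  · subst h
    exact no_mixed_element hc s p r b a hs hp hr hqr hpr (by rw [hcard]; ring) (x * y)
      (hord ▸ Dvd.intro_left r rfl) (hord ▸ Dvd.intro s rfl)

end Cfsg.Agent.Lib.Helper51
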