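import Cfsg.Agent.Lib.Helper51.Amalgam2
import Cfsg.Prelude.Def_LocalStructure

set_option autoImplicit false
open Cfsg

namespace Cfsg.Agent.Lib.Helper51

section General

variable {X : Type*} [Group X] {p : ℕ}

theorem sylowCenterClosure_map_le [Fact p.Prime] (H : Subgroup X) [Finite H] (φ : X ≃* X) :
    (sylowCenterClosure p H).map φ.toMonoidHom ≤ sylowCenterClosure p (H.map φ.toMonoidHom) := by
  rw [Subgroup.map_le_iff_le_comap]
  apply sylowCenterClosure_le
  intro T hT
  rw [← Subgroup.map_le_iff_le_comap, OZ_map]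
  exact OZ_le_sylowCenterClosure (hT.map φ)

theorem pResidual_normal (L : Type*) [Group L] : (pResidual p L).Normal := by
  unfold pResidual
  rw [← Subgroup.normalizer_eq_top_iff, eq_top_iff, Subgroup.le_normalizer_closure_iff]
  intro g _ x hx
  apply Subgroup.subset_closure
  have : orderOf (g * x * g⁻¹) = orderOf x :=
    orderOf_injective (MulAut.conj g).toMonoidHom (MulAut.conj g).injective x
  change Nat.Coprime (orderOf (g * x * g⁻¹)) p
  rw [this]
  exact hx

theorem exists_pow_mem_pResidual [Fact p.Prime] {L : Type*} [Group L] [Finite L] (c : L) :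
    ∃ k : ℕ, c ^ p ^ k ∈ pResidual p L := by
  have hp : p.Prime := Fact.out
  obtain ⟨k, m, hm, hkm⟩ := Nat.exists_eq_pow_mul_and_not_dvd (orderOf_pos c).ne' p hp.ne_one
  have hord : orderOf (c ^ p ^ k) = m := by
    rw [orderOf_pow, hkm, Nat.gcd_eq_right (Dvd.intro _ rfl), Nat.mul_div_cancel_left _ (pow_pos hp.pos k)]
  refine ⟨k, Subgroup.subset_closure ?_⟩
  change Nat.Coprime (orderOf (c ^ p ^ k)) p
  rw [hord]
  exact ((Nat.Prime.coprime_iff_not_dvd hp).2 hm).symm

theorem pResidual_sup_sylow [Fact p.Prime] {L : Type*} [Group L] [Finite L] (P : Sylow p L) :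
    pResidual p L ⊔ (P : Subgroup L) = ⊤ := by
  have hp : p.Prime := Fact.out
  have hN := pResidual_normal (p := p) L
  have hq : IsPGroup p (L ⧸ pResidual p L) := by
    intro x
    induction x using QuotientGroup.induction_on with
    | H c =>
      obtain ⟨k, hk⟩ := exists_pow_mem_pResidual (p := p) c
      refine ⟨k, ?_⟩
      rw [← QuotientGroup.mk_pow]
      exact (QuotientGroup.eq_one_iff _).2 hk
  obtain ⟨a, ha⟩ := IsPGroup.iff_card.1 hq
  have h1 : (pResidual p L ⊔ (P : Subgroup L)).index ∣ p ^ a := by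
    rw [← ha, ← Subgroup.index_eq_card]
    exact Subgroup.index_dvd_of_le le_sup_left
  have h2 : (pResidual p L ⊔ (P : Subgroup L)).index ∣ (P : Subgroup L).index :=
    Subgroup.index_dvd_of_le le_sup_right
  obtain ⟨j, -, hj⟩ := (Nat.dvd_prime_pow hp).1 h1
  cases j with
  | zero => simpa using hj
  | succ j =>
    exfalso
    apply P.not_dvd_index
    refine dvd_trans ?_ h2
    rw [hj]
    exact dvd_pow_self p (Nat.succ_ne_zero j)

/-- `L = O^p(L) T` in the ambient-group language. -/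
theorem le_pResidual_sup [Fact p.Prime] {T L : Subgroup X} [Finite L] (hT : IsSylowIn p T L) :
    L ≤ (pResidual p L).map L.subtype ⊔ T := by
  obtain ⟨P, rfl⟩ := hT
  rw [← Subgroup.map_sup, pResidual_sup_sylow]
  intro x hx
  exact ⟨⟨x, hx⟩, trivial, rfl⟩

theorem OZ_ne_bot [Fact p.Prime] {T : Subgroup X} [Finite T] (hT : IsPGroup p T) (hne : T ≠ ⊥) :
    OZ p T ≠ ⊥ := by
  intro h
  have h1 : T ⊓ Subgroup.centralizer (T : Set X) = ⊥ :=
    eq_bot_of_omegaOne_eq_bot (hT.to_le inf_le_left) h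
  have : Nontrivial T := (Subgroup.nontrivial_iff_ne_bot T).2 hne
  have hnt : Nontrivial (Subgroup.center T) := hT.center_nontrivial
  obtain ⟨⟨z, hz⟩, hz1⟩ := exists_ne (1 : Subgroup.center T)
  apply hz1
  have h2 : (z : X) ∈ T ⊓ Subgroup.centralizer (T : Set X) := by
    refine Subgroup.mem_inf.2 ⟨z.2, ?_⟩
    rw [Subgroup.mem_centralizer_iff]
    intro y hy
    rw [Subgroup.mem_center_iff] at hz
    exact congrArg Subtype.val (hz ⟨y, hy⟩)
  rw [h1, Subgroup.mem_bot] at h2
  exact Subtype.ext (Subtype.ext h2)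

theorem sylowCenterClosure_ne_bot [Fact p.Prime] (H : Subgroup X) [Finite H] (hp : p ∣ Nat.card H) :
    sylowCenterClosure p H ≠ ⊥ := by
  obtain ⟨T, hT⟩ := exists_isSylowIn (p := p) H
  have hfin : Finite T := Finite.of_injective (Subgroup.inclusion hT.le) (Subgroup.inclusion_injective hT.le)
  have hne : T ≠ ⊥ := by
    rintro rfl
    obtain ⟨-, hc⟩ := isSylowIn_iff_card.1 hT
    rw [Subgroup.card_bot] at hc
    have h0 : (Nat.card H).factorization p = 0 := by
      by_contra h0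
      have : 1 < p ^ (Nat.card H).factorization p := Nat.one_lt_pow h0 (Fact.out : p.Prime).one_lt
      omega
    have h1 := ((Fact.out : p.Prime).dvd_iff_one_le_factorization Nat.card_pos.ne').1 hp
    omega
  intro h
  apply OZ_ne_bot hT.isPGroup hne
  rw [eq_bot_iff, ← h]
  exact OZ_le_sylowCenterClosure hT

end General

section Graph

variable {X : Type*} [Group X] {p : ℕ} {M₁ M₂ : Subgroup X}

theorem dist_smul_le (hgen : M₁ ⊔ M₂ = ⊤) (g : X) (a b : CosetVertex M₁ M₂) :
    (cosetGraph M₁ M₂).dist (g • a) (g • b) ≤ (cosetGraph M₁ M₂).dist a b := by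
  obtain ⟨q, hq⟩ := (connected M₁ M₂ hgen).exists_walk_length_eq_dist a b
  rw [← hq, ← SimpleGraph.Walk.length_map (smulHom M₁ M₂ g) q]
  exact SimpleGraph.dist_le _

theorem dist_smul (hgen : M₁ ⊔ M₂ = ⊤) (g : X) (a b : CosetVertex M₁ M₂) :
    (cosetGraph M₁ M₂).dist (g • a) (g • b) = (cosetGraph M₁ M₂).dist a b := by
  apply le_antisymm (dist_smul_le hgen g a b)
  have := dist_smul_le hgen g⁻¹ (g • a) (g • b)
  simpa using this

theorem vertexZ_smul_le [Fact p.Prime] (h : IsCharPAmalgamPair p M₁ M₂) (g : X)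
    (ν : CosetVertex M₁ M₂) :
    (vertexZ p ν).map (MulAut.conj g).toMonoidHom ≤ vertexZ p (g • ν) := by
  have := finite_stabilizer h ν
  unfold vertexZ
  rw [MulAction.stabilizer_smul_eq_stabilizer_map_conj]
  exact sylowCenterClosure_map_le _ _

theorem vertexZ_le_vertexVIter {k : ℕ} {μ ν : CosetVertex M₁ M₂}
    (hd : (cosetGraph M₁ M₂).dist μ ν ≤ k) : vertexZ p ν ≤ vertexVIter p M₁ M₂ k μ :=
  le_iSup (fun ν : {ν : CosetVertex M₁ M₂ // (cosetGraph M₁ M₂).dist μ ν ≤ k} =>
    vertexZ p (ν : CosetVertex M₁ M₂)) ⟨ν, hd⟩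

theorem le_normalizer_vertexVIter [Fact p.Prime] (h : IsCharPAmalgamPair p M₁ M₂) (k : ℕ)
    (μ : CosetVertex M₁ M₂) :
    MulAction.stabilizer X μ ≤ Subgroup.normalizer (vertexVIter p M₁ M₂ k μ : Set X) := by
  rw [Subgroup.le_normalizer_iff]
  intro g hg x hx
  have : vertexVIter p M₁ M₂ k μ ≤ (vertexVIter p M₁ M₂ k μ).comap (MulAut.conj g).toMonoidHom := by
    apply iSup_le
    rintro ⟨ν, hν⟩
    rw [← Subgroup.map_le_iff_le_comap]
    refine (vertexZ_smul_le h g ν).trans (vertexZ_le_vertexVIter ?_)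
    have hgμ : g • μ = μ := hg
    rw [← hgμ, dist_smul h.1.1]
    exact hν
  exact this hx

theorem vertexVIter_le_of_adj (hgen : M₁ ⊔ M₂ = ⊤) (k : ℕ) {lam μ : CosetVertex M₁ M₂}
    (hadj : (cosetGraph M₁ M₂).Adj lam μ) :
    vertexVIter p M₁ M₂ k lam ≤ vertexVIter p M₁ M₂ (k + 1) μ := by
  apply iSup_le
  rintro ⟨ν, hν⟩
  apply vertexZ_le_vertexVIter
  have h1 : (cosetGraph M₁ M₂).dist μ ν ≤ (cosetGraph M₁ M₂).dist μ lam + (cosetGraph M₁ M₂).dist lam ν :=
    (connected M₁ M₂ hgen).dist_triangle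
  have h2 : (cosetGraph M₁ M₂).dist μ lam = 1 := SimpleGraph.dist_eq_one_iff_adj.2 hadj.symm
  change (cosetGraph M₁ M₂).dist μ ν ≤ k + 1
  omega

theorem card_stabilizer_dvd (h : IsCharPAmalgamPair p M₁ M₂) (δ : CosetVertex M₁ M₂) :
    p ∣ Nat.card (MulAction.stabilizer X δ) := by
  obtain ⟨-, -, -, h1, h2, -⟩ := h
  rcases vertex_cases δ with ⟨x, rfl⟩ | ⟨x, rfl⟩
  · rw [stabilizer_inl, ← Nat.card_congr (conjEquiv M₁ x).toEquiv]
    exact h1
  · rw [stabilizer_inr, ← Nat.card_congr (conjEquiv M₂ x).toEquiv]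
    exact h2

theorem vertexZ_ne_bot [Fact p.Prime] (h : IsCharPAmalgamPair p M₁ M₂) (δ : CosetVertex M₁ M₂) :
    vertexZ p δ ≠ ⊥ := by
  have := finite_stabilizer h δ
  exact sylowCenterClosure_ne_bot _ (card_stabilizer_dvd h δ)

theorem exists_adj (δ : CosetVertex M₁ M₂) : ∃ μ, (cosetGraph M₁ M₂).Adj δ μ := by
  rcases vertex_cases δ with ⟨x, rfl⟩ | ⟨x, rfl⟩
  · exact ⟨_, adj_inl_inr M₁ M₂ x⟩
  · exact ⟨_, (adj_inl_inr M₁ M₂ x).symm⟩

/-- In the rank two setting `G_λ = O^p(L_λ) G_{λμ}`. -/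
theorem stabilizer_le_sup [Fact p.Prime] (h : IsSpeAmalgamPair p M₁ M₂) {lam μ : CosetVertex M₁ M₂}
    (hadj : (cosetGraph M₁ M₂).Adj lam μ) :
    MulAction.stabilizer X lam ≤
      ((pResidual p ↥(pElementClosure p (MulAction.stabilizer X lam))).map
        (pElementClosure p (MulAction.stabilizer X lam)).subtype) ⊔ edgeStabilizer lam μ := by
  have hchar := h.1
  have hfin := finite_stabilizer hchar lam
  obtain ⟨T, hT⟩ := exists_isSylowIn (p := p) (edgeStabilizer lam μ)
  have hTl : IsSylowIn p T (MulAction.stabilizer X lam) := hT.edge_left hchar hadj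
  have hTL : T ≤ pElementClosure p (MulAction.stabilizer X lam) :=
    IsPGroup.le_pElementClosure hTl.isPGroup hTl.le
  have hLle := pElementClosure_le (p := p) (MulAction.stabilizer X lam)
  have hfinL : Finite (pElementClosure p (MulAction.stabilizer X lam)) :=
    Finite.of_injective (Subgroup.inclusion hLle) (Subgroup.inclusion_injective hLle)
  have hTL' : IsSylowIn p T (pElementClosure p (MulAction.stabilizer X lam)) :=
    hTl.of_le_of_le hTL hLle
  intro g hg
  obtain ⟨l, hl, n, hn, rfl⟩ := frattini hTl hTL hLle (le_normalizer_pElementClosure _) hg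
  have hn' : n ∈ edgeStabilizer lam μ := ⟨hn.1, spe_normalizer_le h hadj hT hn⟩
  have hl' := le_pResidual_sup hTL' hl
  refine mul_mem ?_ (Subgroup.mem_sup_right hn')
  exact (sup_le_sup_left hT.le _) hl'

end Graph

end Cfsg.Agent.Lib.Helper51
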