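import Mathlib
import Cfsg.Prelude
import Cfsg.Agent.Lib.Helper1.Coprime2
import Cfsg.Agent.Lib.Helper1.Coprime3
import Cfsg.Agent.Lib.Helper1.Tools
import Cfsg.Agent.Lib.Helper28.Rel
import Cfsg.Agent.Lib.Helper3.RankTwoFitting
import Cfsg.Agent.Lib.Helper3.PGroup
import Cfsg.Agent.Lib.Helper31.Nilpotent
import Cfsg.Agent.S0044

/-!
Bender--Glauberman 3.7: `[K, R] ≤ F(K)` for a coprime "prime" action which is fixed point free on
`F(K)`.
-/

set_option autoImplicit false

namespace Cfsg.Agent.Lib.Helper51.BG37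

open Subgroup Cfsg.Agent.Lib.Helper28 Cfsg.Agent.Lib.Helper1
open scoped Pointwise commutatorElement

universe u

variable {G : Type u} [Group G]

theorem inf_centralizer_fitIn_le' [Finite G] {X : Subgroup G} (hX : Group.IsSolvable X) :
    X ⊓ centralizer (fitIn X : Set G) ≤ fitIn X := by
  intro x hx
  obtain ⟨hxX, hxC⟩ := mem_inf.mp hx
  refine ⟨⟨x, hxX⟩, Cfsg.Agent.S0044.result ?_, rfl⟩
  rw [Subgroup.mem_centralizer_iff]
  intro y hy
  exact Subtype.ext (Subgroup.mem_centralizer_iff.mp hxC y ⟨y, hy, rfl⟩)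

/-- A coprime group of operators centralizing `F(K)`, `K` solvable, centralizes `K`. -/
theorem centralizes_of_centralizes_fitIn [Finite G] (K X : Subgroup G)
    (hXK : X ≤ normalizer (K : Set G)) (hcop : (Nat.card X).Coprime (Nat.card K))
    (hK : Group.IsSolvable K) (hcent : X ≤ centralizer (fitIn K : Set G)) :
    X ≤ centralizer (K : Set G) := by
  set F := fitIn K with hF
  have h1 : ⁅F, X⁆ = ⊥ := by
    rw [commutator_comm, commutator_eq_bot_iff_le_centralizer]
    exact hcent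
  have h2 : ⁅F, K⁆ ≤ F :=
    Subgroup.le_normalizer_iff_commutator_le_left.mp (le_normalizer_fitIn K)
  have h3 : ⁅⁅F, K⁆, X⁆ = ⊥ := by
    rw [eq_bot_iff, ← h1]
    exact commutator_mono h2 le_rfl
  have h4 : ⁅⁅X, F⁆, K⁆ = ⊥ := by
    rw [commutator_comm X F, h1]
    simp
  have h5 : ⁅⁅K, X⁆, F⁆ = ⊥ := commutator_commutator_eq_bot_of_rotate h4 h3
  have h6 : ⁅K, X⁆ ≤ F := by
    refine le_trans (le_inf (commutator_le_left_of_le_normalizer hXK) ?_)
      (inf_centralizer_fitIn_le' hK)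
    exact commutator_eq_bot_iff_le_centralizer.mp h5
  have h7 : ⁅⁅K, X⁆, X⁆ = ⁅K, X⁆ := coprime_commutator_commutator X K hXK hcop (Or.inr hK)
  have h8 : ⁅K, X⁆ = ⊥ := by
    rw [eq_bot_iff, ← h7, ← h1]
    exact commutator_mono h6 le_rfl
  rw [commutator_comm] at h8
  exact commutator_eq_bot_iff_le_centralizer.mp h8

/-- relative form of helper3's criterion. -/
theorem le_fitIn_of_coprime_centralizes [Finite G] (K D : Subgroup G) (hK : Group.IsSolvable K)
    (hDK : D ≤ K) (hn : K ≤ normalizer (D : Set G))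
    (h : ∀ (p : ℕ) [Fact p.Prime], ∀ d ∈ D, (orderOf d).Coprime p →
      d ∈ centralizer (opIn p K : Set G)) : D ≤ fitIn K := by
  have hN : (D.subgroupOf K).Normal := (Subgroup.normal_subgroupOf_iff_le_normalizer hDK).mpr hn
  refine le_map_subtype_of_subgroupOf_le hDK ?_
  refine Cfsg.Agent.Lib.Helper3.le_fitting_of_coprime_centralizes (D.subgroupOf K)
    (fun x hx => Cfsg.Agent.S0044.result hx) ?_
  intro p _ d hd hc
  rw [Subgroup.mem_centralizer_iff]
  intro y hy
  have h1 := h p (d : G) (Subgroup.mem_subgroupOf.mp hd) (by rwa [Subgroup.orderOf_coe])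
  exact Subtype.ext (Subgroup.mem_centralizer_iff.mp h1 y ⟨y, hy, rfl⟩)

/-- the text of statement S3769 (B-G 3.4/3.5 consequence), at a fixed universe. -/
def Stmt3769 : Prop :=
  ∀ {X : Type u} [Group X] [Finite X] (G : Subgroup X) (_ : Group.IsSolvable G)
    (_ : Odd (Nat.card G)) (V : Subgroup X) {ℓ : ℕ} (_ : ℓ.Prime)
    (_ : Cfsg.IsElementaryAbelian ℓ V) (_ : ¬ ℓ ∣ Nat.card G)
    (_ : G ≤ Subgroup.normalizer (V : Set X)) (K R : Subgroup X) (_ : K ≤ G)
    (_ : G ≤ Subgroup.normalizer (K : Set X)) (_ : (Nat.card K).Coprime (K.relIndex G))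
    (_ : R ≤ G) (_ : (Nat.card R).Prime) (_ : K ⊓ R = ⊥) (_ : K ⊔ R = G)
    (_ : V ⊓ Subgroup.centralizer (R : Set X) = ⊥), ⁅R, K⁆ ≤ Subgroup.centralizer (V : Set X)

/-- Frattini quotient of a normal `ℓ`-subgroup is elementary abelian. -/
theorem isElementaryAbelian_map_mk [Finite G] {ℓ : ℕ} [Fact ℓ.Prime] (U : Subgroup G)
    (hU : IsPGroup ℓ U) (Φ : Subgroup G) [Φ.Normal] (hΦ : Φ = (frattini U).map U.subtype) :
    Cfsg.IsElementaryAbelian ℓ (U.map (QuotientGroup.mk' Φ)) := by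
  constructor
  · refine ⟨⟨?_⟩⟩
    rintro ⟨_, a, ha, rfl⟩ ⟨_, b, hb, rfl⟩
    apply Subtype.ext
    change QuotientGroup.mk' Φ a * QuotientGroup.mk' Φ b
      = QuotientGroup.mk' Φ b * QuotientGroup.mk' Φ a
    rw [← map_mul, ← map_mul]
    apply (QuotientGroup.eq).mpr
    have h1 : ⁅(⟨b, hb⟩ : U)⁻¹, (⟨a, ha⟩ : U)⁻¹⁆ ∈ frattini U :=
      Cfsg.Agent.Lib.Helper3.commutator_le_frattini hU
        (Subgroup.commutator_mem_commutator (Subgroup.mem_top _) (Subgroup.mem_top _))
    have h2 : (a * b)⁻¹ * (b * a) = ((⁅(⟨b, hb⟩ : U)⁻¹, (⟨a, ha⟩ : U)⁻¹⁆ : U) : G) := by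
      simp [commutatorElement_def, mul_assoc]
    rw [h2, hΦ]
    exact ⟨_, h1, rfl⟩
  · rintro _ ⟨a, ha, rfl⟩
    rw [← map_pow]
    apply (QuotientGroup.eq_one_iff _).mpr
    rw [hΦ]
    exact ⟨(⟨a, ha⟩ : U) ^ ℓ, Cfsg.Agent.Lib.Helper3.pow_p_mem_frattini hU _, rfl⟩

theorem eq_bot_of_isPGroup_of_coprime' {q : ℕ} {Z : Subgroup G} (hZ : IsPGroup q Z)
    (hc : (Nat.card Z).Coprime q) : Z = ⊥ := by
  rw [eq_bot_iff]
  intro x hx
  obtain ⟨k, hk⟩ := hZ ⟨x, hx⟩
  have h1 : orderOf x ∣ q ^ k := orderOf_dvd_of_pow_eq_one (congrArg Subtype.val hk)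
  have h2 : orderOf x ∣ Nat.card Z := by
    have := orderOf_dvd_natCard (⟨x, hx⟩ : Z)
    rwa [Subgroup.orderOf_mk] at this
  have h3 : orderOf x = 1 := Nat.eq_one_of_dvd_coprimes (Nat.Coprime.pow_right k hc) h2 h1
  exact orderOf_eq_one_iff.mp h3

/-- Key step: `[Q, X]` centralizes `O_ℓ(K)` for `ℓ ≠ q`. -/
theorem comm_centralizes_opIn (H : Stmt3769.{u}) [Finite G] (hsolv : Group.IsSolvable G)
    (hodd : Odd (Nat.card G)) (K : Subgroup G) [hKn : K.Normal] (X : Subgroup G)
    (hX : (Nat.card X).Prime) (hcop : (Nat.card K).Coprime (Nat.card X))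
    (hF : fitIn K ⊓ centralizer (X : Set G) = ⊥) {q : ℕ} [hq : Fact q.Prime] (Q : Subgroup G)
    (hQK : Q ≤ K) (hQ : IsPGroup q Q) (hXQ : X ≤ normalizer (Q : Set G)) {ℓ : ℕ}
    [hℓ : Fact ℓ.Prime] (hℓq : ℓ ≠ q) : ⁅Q, X⁆ ≤ centralizer (opIn ℓ K : Set G) := by
  set U := opIn ℓ K with hU
  have hUp : IsPGroup ℓ U := opIn_isPGroup ℓ K
  have hUK : U ≤ K := opIn_le ℓ K
  have hUn : U.Normal := map_subtype_normal_of_characteristic hKn (pCore_characteristic ℓ)
  by_cases hℓr : ℓ = Nat.card X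
  · have : U = ⊥ := by
      apply eq_bot_of_isPGroup_of_coprime' hUp
      rw [hℓr]
      exact Nat.Coprime.coprime_dvd_left (card_dvd_of_le hUK) hcop
    rw [this]
    intro y _
    rw [Subgroup.mem_centralizer_iff]
    intro z hz
    rw [SetLike.mem_coe, Subgroup.mem_bot] at hz
    rw [hz]; simp
  set Φ := (frattini U).map U.subtype with hΦ
  have hΦn : Φ.Normal := map_subtype_normal_of_characteristic hUn inferInstance
  have hΦU : Φ ≤ U := Subgroup.map_subtype_le _
  set π := QuotientGroup.mk' Φ with hπ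
  have hQXcop : (Nat.card X).Coprime (Nat.card Q) :=
    (Nat.Coprime.coprime_dvd_left (card_dvd_of_le hQK) hcop).symm
  have hcardQX : Nat.card (X ⊔ Q : Subgroup G) = Nat.card X * Nat.card Q :=
    card_sup_of_coprime_le_normalizer hXQ hQXcop
  have hℓQX : ¬ ℓ ∣ Nat.card (Q ⊔ X : Subgroup G) := by
    rw [sup_comm, hcardQX]
    intro hd
    rcases (Nat.Prime.dvd_mul hℓ.out).mp hd with h | h
    · exact hℓr ((Nat.prime_dvd_prime_iff_eq hℓ.out hX).mp h)
    · obtain ⟨k, hk⟩ := IsPGroup.iff_card.mp hQ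
      rw [hk] at h
      exact hℓq ((Nat.prime_dvd_prime_iff_eq hℓ.out hq.out).mp (hℓ.out.dvd_of_dvd_pow h))
  have hmapdvd : ∀ S : Subgroup G, Nat.card (S.map π) ∣ Nat.card S := fun S =>
    Dvd.intro _ (card_map_mul_card_inf_ker π S)
  have hXΦ : (Nat.card X).Coprime (Nat.card Φ) :=
    (Nat.Coprime.coprime_dvd_left (card_dvd_of_le (hΦU.trans hUK)) hcop).symm
  have hcardX : Nat.card (X.map π) = Nat.card X := card_map_mk_of_coprime Φ hXΦ
  have key := H (X := G ⧸ Φ) ((Q ⊔ X).map π) inferInstance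
    (Odd.of_dvd_nat hodd ((hmapdvd _).trans (Subgroup.card_subgroup_dvd_card _)))
    (U.map π) hℓ.out (isElementaryAbelian_map_mk U hUp Φ hΦ)
    (fun hd => hℓQX (hd.trans (hmapdvd _)))
    (by
      have : (U.map π).Normal := hUn.map π (QuotientGroup.mk'_surjective Φ)
      rw [Subgroup.normalizer_eq_top]
      exact le_top)
    (Q.map π) (X.map π) (Subgroup.map_mono le_sup_left)
    (by
      have h1 : Q ⊔ X ≤ normalizer (Q : Set G) := sup_le le_normalizer hXQ
      exact (Subgroup.map_mono h1).trans (Subgroup.le_normalizer_map π))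
    (by
      have h1 : X.map π ≤ normalizer ((Q.map π : Subgroup (G ⧸ Φ)) : Set (G ⧸ Φ)) :=
        (Subgroup.map_mono hXQ).trans (Subgroup.le_normalizer_map π)
      rw [Subgroup.map_sup, sup_comm, relIndex_sup_right_of_le_normalizer h1]
      refine Nat.Coprime.coprime_dvd_left (hmapdvd Q) ?_
      refine Nat.Coprime.coprime_dvd_right (Subgroup.relIndex_dvd_card _ _) ?_
      rw [hcardX]
      exact hQXcop.symm)
    (Subgroup.map_mono le_sup_right) (by rw [hcardX]; exact hX)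
    (by
      apply (Subgroup.disjoint_of_coprime_natCard _).eq_bot
      rw [hcardX]
      exact Nat.Coprime.coprime_dvd_left (hmapdvd Q) hQXcop.symm)
    (by rw [Subgroup.map_sup])
    (by
      rw [eq_bot_iff]
      rintro _ ⟨⟨u, hu, rfl⟩, hc⟩
      have hfix : ∀ a ∈ X, a * u * a⁻¹ * u⁻¹ ∈ Φ := by
        intro a ha
        have h1 := Subgroup.mem_centralizer_iff.mp hc (π a) ⟨a, ha, rfl⟩
        rw [← QuotientGroup.eq_one_iff]
        change π (a * u * a⁻¹ * u⁻¹) = 1
        rw [map_mul, map_mul, map_mul, h1]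
        simp
      obtain ⟨c, hc1, hc2⟩ := coprime_fixed_points_quotient X U
        ((Nat.Coprime.coprime_dvd_left (card_dvd_of_le hUK) hcop).symm)
        (Or.inr (isSolvable_of_le (le_top : U ≤ ⊤) inferInstance)) Φ hΦU
        (by rw [Subgroup.normalizer_eq_top]; exact le_top)
        (by rw [Subgroup.normalizer_eq_top]; exact le_top) u hu hfix
      have hc3 : c ∈ fitIn K ⊓ centralizer (X : Set G) :=
        ⟨opIn_le_fitIn ℓ K hc1.1, hc1.2⟩
      rw [hF, Subgroup.mem_bot] at hc3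
      rw [hc3, mul_one] at hc2
      rw [Subgroup.mem_bot]
      exact (QuotientGroup.eq_one_iff u).mpr (by simpa using Φ.inv_mem hc2))
  -- translate back
  apply coprime_trivial_on_frattini_quotient ⁅Q, X⁆ U
  · rw [Subgroup.normalizer_eq_top]; exact le_top
  · have h1 : Nat.card (⁅Q, X⁆ : Subgroup G) ∣ Nat.card Q :=
      card_dvd_of_le (commutator_le_left_of_le_normalizer hXQ)
    obtain ⟨k, hk⟩ := IsPGroup.iff_card.mp hQ
    obtain ⟨m, hm⟩ := IsPGroup.iff_card.mp (hUp.to_subgroup (frattini U))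
    rw [hm]
    refine Nat.Coprime.coprime_dvd_left h1 ?_
    rw [hk]
    exact Nat.Coprime.pow _ _ ((Nat.coprime_primes hq.out hℓ.out).mpr (Ne.symm hℓq))
  · intro a ha k hk
    have h1 : π a ∈ ⁅X.map π, Q.map π⁆ := by
      rw [← Subgroup.map_commutator, commutator_comm]
      exact ⟨a, ha, rfl⟩
    have h2 := Subgroup.mem_centralizer_iff.mp (key h1) (π k) ⟨k, hk, rfl⟩
    rw [← hΦ, ← QuotientGroup.eq_one_iff]
    change π (a * k * a⁻¹ * k⁻¹) = 1
    rw [map_mul, map_mul, map_mul, ← h2]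
    simp

/-- one layer: `N / F(K)` a `q`-group. -/
theorem comm_le_fitIn_layer (H : Stmt3769.{u}) [Finite G] (hsolv : Group.IsSolvable G)
    (hodd : Odd (Nat.card G)) (K : Subgroup G) [hKn : K.Normal] (X : Subgroup G)
    (hX : (Nat.card X).Prime) (hcop : (Nat.card K).Coprime (Nat.card X))
    (hF : fitIn K ⊓ centralizer (X : Set G) = ⊥) {q : ℕ} [hq : Fact q.Prime] (N : Subgroup G)
    (hNK : N ≤ K) [hNn : N.Normal]
    (hNq : ∀ n ∈ N, (orderOf n).Coprime q → n ∈ fitIn K)
    (hidx : ∃ k : ℕ, (fitIn K).relIndex N = q ^ k) : ⁅N, X⁆ ≤ fitIn K := by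
  set F := fitIn K with hFdef
  have hFn : F.Normal := map_subtype_normal_of_characteristic hKn fitting_characteristic
  have hKsolv : Group.IsSolvable K := inferInstance
  obtain ⟨Q, ⟨hQN, hQp, hQi⟩, hXQ⟩ := coprime_exists_invariant_sylow X N
    (by rw [Subgroup.normalizer_eq_top]; exact le_top)
    ((Nat.Coprime.coprime_dvd_left (card_dvd_of_le hNK) hcop).symm)
    (Or.inr inferInstance) q
  have hsup : N ≤ F ⊔ Q := by
    rw [← Subgroup.relIndex_eq_one]
    obtain ⟨k, hk⟩ := hidx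
    have h1 : (F ⊔ Q).relIndex N ∣ q ^ k := by
      rw [← hk]; exact Subgroup.relIndex_dvd_of_le_left N le_sup_left
    have h2 : (F ⊔ Q).relIndex N ∣ Q.relIndex N := Subgroup.relIndex_dvd_of_le_left N le_sup_right
    obtain ⟨j, -, hj⟩ := (Nat.dvd_prime_pow hq.out).mp h1
    rcases Nat.eq_zero_or_pos j with rfl | hjpos
    · simpa using hj
    · exfalso
      apply hQi
      refine dvd_trans ?_ h2
      rw [hj]
      exact dvd_pow_self q hjpos.ne'
  set D : Subgroup G := N ⊓ ⨅ ℓ : {ℓ : Nat.Primes // (ℓ : ℕ) ≠ q},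
    centralizer (opIn ((ℓ : Nat.Primes) : ℕ) K : Set G) with hD
  have hopn : ∀ ℓ : ℕ, (opIn ℓ K).Normal := fun ℓ =>
    map_subtype_normal_of_characteristic hKn (pCore_characteristic ℓ)
  have hDn : D.Normal := by
    have h1 : ∀ ℓ : {ℓ : Nat.Primes // (ℓ : ℕ) ≠ q},
        (centralizer (opIn ((ℓ : Nat.Primes) : ℕ) K : Set G)).Normal := fun ℓ => by
      have := hopn ((ℓ : Nat.Primes) : ℕ)
      infer_instance
    have h2 := Subgroup.normal_iInf_normal h1
    exact Subgroup.normal_inf_normal _ _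
  have hDF : D ≤ F := by
    apply le_fitIn_of_coprime_centralizes K D hKsolv (inf_le_left.trans hNK)
      (by rw [Subgroup.normalizer_eq_top]; exact le_top)
    intro p hp d hd hc
    by_cases hpq : p = q
    · subst hpq
      have hdF : d ∈ F := hNq d hd.1 hc
      rw [Subgroup.mem_centralizer_iff]
      intro y hy
      have hyF : y ∈ F := opIn_le_fitIn p K hy
      have := fitIn_isNilpotent K
      obtain ⟨m, hm⟩ := (opIn_isPGroup p K) ⟨y, hy⟩
      have hoy : orderOf y ∣ p ^ m := orderOf_dvd_of_pow_eq_one (congrArg Subtype.val hm)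
      have h3 := Cfsg.Agent.Lib.Helper31.commute_of_coprime_orderOf F ⟨y, hyF⟩ ⟨d, hdF⟩
        (by
          rw [Subgroup.orderOf_mk, Subgroup.orderOf_mk]
          exact Nat.Coprime.coprime_dvd_left hoy (Nat.Coprime.pow_left m hc.symm))
      exact congrArg Subtype.val h3
    · have h1 := (Subgroup.mem_inf.mp hd).2
      rw [Subgroup.mem_iInf] at h1
      exact h1 ⟨⟨p, hp.out⟩, hpq⟩
  have hAD : ⁅Q, X⁆ ≤ D := by
    refine le_inf ((commutator_le_left_of_le_normalizer hXQ).trans hQN) (le_iInf ?_)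
    rintro ⟨ℓ, hℓ⟩
    have := Fact.mk ℓ.2
    exact comm_centralizes_opIn H hsolv hodd K X hX hcop hF Q (hQN.trans hNK) hQp hXQ hℓ
  rw [Subgroup.commutator_le]
  intro n hn x hx
  have hn' : n ∈ Q ⊔ F := by rw [sup_comm]; exact hsup hn
  obtain ⟨y, hy, f, hf, rfl⟩ := (mem_sup_of_le_normalizer
    (by rw [Subgroup.normalizer_eq_top]; exact le_top)).mp hn'
  have h1 : ⁅y, x⁆ ∈ F := hDF (hAD (Subgroup.commutator_mem_commutator hy hx))
  have h2 : ⁅y * f, x⁆ = y * (f * (x * f⁻¹ * x⁻¹)) * y⁻¹ * ⁅y, x⁆ := by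
    simp only [commutatorElement_def]; group
  rw [h2]
  exact F.mul_mem (hFn.conj_mem _ (F.mul_mem hf (hFn.conj_mem _ (F.inv_mem hf) x)) y) h1

/-- B-G 3.7 for a group `X` of prime order. -/
theorem comm_le_fitIn_prime (H : Stmt3769.{u}) [Finite G] (hsolv : Group.IsSolvable G)
    (hodd : Odd (Nat.card G)) (K : Subgroup G) [hKn : K.Normal] (X : Subgroup G)
    (hX : (Nat.card X).Prime) (hcop : (Nat.card K).Coprime (Nat.card X))
    (hF : fitIn K ⊓ centralizer (X : Set G) = ⊥) : ⁅K, X⁆ ≤ fitIn K := by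
  set F := fitIn K with hFdef
  have hFn : F.Normal := map_subtype_normal_of_characteristic hKn fitting_characteristic
  have hFK : F ≤ K := fitIn_le K
  set π := QuotientGroup.mk' F with hπ
  have hπs : Function.Surjective π := QuotientGroup.mk'_surjective F
  have hmapdvd : ∀ S : Subgroup G, Nat.card (S.map π) ∣ Nat.card S := fun S =>
    Dvd.intro _ (card_map_mul_card_inf_ker π S)
  have hKbn : (K.map π).Normal := hKn.map π hπs
  have main : X.map π ≤ centralizer ((K.map π : Subgroup (G ⧸ F)) : Set (G ⧸ F)) := by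
    apply centralizes_of_centralizes_fitIn (K.map π) (X.map π)
      (by rw [Subgroup.normalizer_eq_top]; exact le_top)
      (Nat.Coprime.coprime_dvd_left (hmapdvd X)
        (Nat.Coprime.coprime_dvd_right (hmapdvd K) hcop.symm)) inferInstance
    rw [Subgroup.le_centralizer_iff, fitIn_eq_iSup_opIn]
    refine iSup_le fun q => ?_
    have hq := Fact.mk q.2
    set Nb := opIn (q : ℕ) (K.map π) with hNb
    have hNbn : Nb.Normal := map_subtype_normal_of_characteristic hKbn (pCore_characteristic _)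
    have hNbp : IsPGroup (q : ℕ) Nb := opIn_isPGroup _ _
    set N := Nb.comap π with hN
    have hNn : N.Normal := hNbn.comap π
    have hNK : N ≤ K := by
      intro n hn
      obtain ⟨k, hk, hkn⟩ := opIn_le _ _ (Subgroup.mem_comap.mp hn)
      have h1 : k⁻¹ * n ∈ F := (QuotientGroup.eq).mp hkn
      have h2 : n = k * (k⁻¹ * n) := by group
      rw [h2]
      exact K.mul_mem hk (hFK h1)
    have hlayer := comm_le_fitIn_layer H hsolv hodd K X hX hcop hF (q := (q : ℕ)) N hNK
      (by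
        intro n hn hc
        obtain ⟨m, hm⟩ := hNbp ⟨π n, hn⟩
        have h1 : orderOf (π n) ∣ (q : ℕ) ^ m :=
          orderOf_dvd_of_pow_eq_one (congrArg Subtype.val hm)
        have h2 : orderOf (π n) ∣ orderOf n := orderOf_map_dvd π n
        have h3 : orderOf (π n) = 1 :=
          Nat.eq_one_of_dvd_coprimes (Nat.Coprime.pow_right m hc) h2 h1
        exact (QuotientGroup.eq_one_iff n).mp (orderOf_eq_one_iff.mp h3))
      (by
        obtain ⟨k, hk⟩ := IsPGroup.iff_card.mp hNbp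
        refine ⟨k, ?_⟩
        have h1 : Nat.card N = Nat.card Nb * Nat.card F := card_comap_mk F Nb
        have hFN : F ≤ N := by
          intro f hf
          have h0 : π f = 1 := (QuotientGroup.eq_one_iff f).mpr hf
          rw [hN, Subgroup.mem_comap, h0]
          exact Nb.one_mem
        have h2 : F.relIndex N * Nat.card F = Nat.card N := by
          rw [mul_comm]; exact card_mul_relIndex hFN
        rw [h1, hk] at h2
        exact Nat.eq_of_mul_eq_mul_right Nat.card_pos h2)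
    intro nb hnb
    obtain ⟨n, rfl⟩ := hπs nb
    rw [Subgroup.mem_centralizer_iff]
    rintro _ ⟨x, hx, rfl⟩
    have h1 : ⁅n, x⁆ ∈ F := hlayer (Subgroup.commutator_mem_commutator hnb hx)
    have h2 : π ⁅n, x⁆ = 1 := (QuotientGroup.eq_one_iff _).mpr h1
    rw [map_commutatorElement, commutatorElement_eq_one_iff_mul_comm] at h2
    exact h2.symm
  rw [Subgroup.commutator_le]
  intro k hk x hx
  have h1 := Subgroup.mem_centralizer_iff.mp (main ⟨x, hx, rfl⟩) (π k) ⟨k, hk, rfl⟩
  rw [← QuotientGroup.eq_one_iff]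
  change π ⁅k, x⁆ = 1
  rw [map_commutatorElement, commutatorElement_eq_one_iff_mul_comm]
  exact h1

/-- B-G 3.7. -/
theorem bg37 (H : Stmt3769.{u}) [Finite G] [hsolv : Group.IsSolvable G]
    (hodd : Odd (Nat.card G)) (K R : Subgroup G) [hKn : K.Normal]
    (hcop : (Nat.card K).Coprime (Nat.card R))
    (hprime : ∀ x ∈ R, x ≠ 1 → K ⊓ Subgroup.centralizer ({x} : Set G)
      = (K ⊓ Subgroup.centralizer (R : Set G)))
    (hF : Cfsg.fittingOf K ⊓ Subgroup.centralizer (R : Set G) = ⊥) :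
    ⁅K, R⁆ ≤ Cfsg.fittingOf K := by
  change ⁅K, R⁆ ≤ fitIn K
  change fitIn K ⊓ Subgroup.centralizer (R : Set G) = ⊥ at hF
  have hFn : (fitIn K).Normal := map_subtype_normal_of_characteristic hKn fitting_characteristic
  by_cases hR : R = ⊥
  · rw [hR]; simp
  have hRnt : Nontrivial R := (Subgroup.nontrivial_iff_ne_bot R).mpr hR
  have hcard : Nat.card R ≠ 1 := by
    intro h
    exact hR ((Subgroup.card_eq_one).mp h)
  obtain ⟨r, hr, hrd⟩ := Nat.exists_prime_and_dvd hcard
  have := Fact.mk hr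
  obtain ⟨x0, hx0⟩ := exists_prime_orderOf_dvd_card' (G := R) r hrd
  set x : G := (x0 : G) with hx
  have hxR : x ∈ R := x0.2
  have hox : orderOf x = r := by rw [hx, Subgroup.orderOf_coe, hx0]
  have hx1 : x ≠ 1 := by
    intro h
    rw [h, orderOf_one] at hox
    exact hr.one_lt.ne hox
  set X := Subgroup.zpowers x with hX
  have hXR : X ≤ R := by rw [hX, Subgroup.zpowers_le]; exact hxR
  have hcX : centralizer (X : Set G) = centralizer ({x} : Set G) := by
    apply le_antisymm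
    · apply Subgroup.centralizer_le
      intro y hy
      rw [Set.mem_singleton_iff] at hy
      rw [hy]
      exact Subgroup.mem_zpowers x
    · rw [Subgroup.le_centralizer_iff, hX, Subgroup.zpowers_le, Subgroup.mem_centralizer_iff]
      intro y hy
      exact (Subgroup.mem_centralizer_iff.mp hy x (Set.mem_singleton x)).symm
  have hcardX : Nat.card X = r := by rw [hX, Nat.card_zpowers, hox]
  have hcopX : (Nat.card K).Coprime (Nat.card X) :=
    Nat.Coprime.coprime_dvd_right (card_dvd_of_le hXR) hcop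
  have hKC : K ⊓ centralizer (X : Set G) = K ⊓ centralizer (R : Set G) := by
    rw [hcX]; exact hprime x hxR hx1
  have hFX : fitIn K ⊓ centralizer (X : Set G) = ⊥ := by
    rw [eq_bot_iff, ← hF]
    intro y hy
    have h1 : y ∈ K ⊓ centralizer (X : Set G) := ⟨fitIn_le K hy.1, hy.2⟩
    rw [hKC] at h1
    exact ⟨hy.1, h1.2⟩
  have h1 := comm_le_fitIn_prime H hsolv hodd K X (by rw [hcardX]; exact hr) hcopX hFX
  rw [Subgroup.commutator_le]
  intro k hk a ha
  obtain ⟨y, hy, c, hc, rfl⟩ := coprime_exists_commutator_mul_centralizer X K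
    (by rw [Subgroup.normalizer_eq_top]; exact le_top) hcopX.symm (Or.inr inferInstance) k hk
  rw [hKC] at hc
  have hyF := h1 hy
  have hca : a * c = c * a := Subgroup.mem_centralizer_iff.mp hc.2 a ha
  have h2 : ⁅y * c, a⁆ = y * (a * y⁻¹ * a⁻¹) := by
    have : c * a * c⁻¹ = a := by rw [← hca]; group
    calc ⁅y * c, a⁆ = y * (c * a * c⁻¹) * y⁻¹ * a⁻¹ := by
          simp only [commutatorElement_def]; group
      _ = y * (a * y⁻¹ * a⁻¹) := by rw [this]; group
  rw [h2]
  exact (fitIn K).mul_mem hyF (hFn.conj_mem _ ((fitIn K).inv_mem hyF) a)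

end Cfsg.Agent.Lib.Helper51.BG37
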