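import Mathlib
import Cfsg.Prelude.Def_Characters
import Cfsg.Prelude.Def_Blocks
import Cfsg.Prelude.Def_Solvable
import Cfsg.Agent.Lib.Helper82.Basic
import Cfsg.Agent.Lib.Helper82.CharKer
import Cfsg.Agent.Lib.Helper82.Constituent
import Cfsg.Agent.Lib.Helper32.DegBound
import Cfsg.Agent.Lib.Helper74.Fitting
import Cfsg.Agent.Lib.Helper19.IndChar
import Cfsg.Agent.Lib.Helper19.IndFun2
import Cfsg.Agent.Lib.Helper20.CharOrth
import Cfsg.Agent.Lib.Helper12.MinNormal
import Cfsg.Agent.Lib.Helper4.CharBasic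

set_option autoImplicit false

/-! Broline-Garrison (Isaacs 12.19): the character-theoretic core. -/

namespace Cfsg.Agent.Lib.Helper51.BroGar

open Cfsg Cfsg.Agent.Lib.Helper82 Cfsg.Agent.Lib.Helper20

section core
variable {G : Type*} [Group G] [Fintype G]

/-- The restriction of an irreducible character to a supplement of (a part of) its kernel is
irreducible. -/
theorem isIrr_restrict_of_sup {χ : G → ℂ} (hχ : IsIrrCharacter G χ) (N : Subgroup G) [N.Normal]
    (hN : ∀ x ∈ N, χ x = χ 1) (H : Subgroup G) (h : N ⊔ H = ⊤) :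
    IsIrrCharacter H (fun x : H => χ x) := by
  obtain ⟨ψ, hψ, hψχ⟩ := isIrr_deflate hχ N hN
  have hs : Function.Surjective ((QuotientGroup.mk' N).comp H.subtype) := by
    intro q
    obtain ⟨g, rfl⟩ := QuotientGroup.mk'_surjective N q
    have hg : g ∈ ((N ⊔ H : Subgroup G) : Set G) := by rw [h]; trivial
    rw [Subgroup.normal_mul] at hg
    obtain ⟨n, hn, y, hy, rfl⟩ := Set.mem_mul.1 hg
    refine ⟨⟨y, hy⟩, ?_⟩
    simp only [MonoidHom.comp_apply, Subgroup.subtype_apply, QuotientGroup.mk'_apply]
    rw [QuotientGroup.mk_mul, (QuotientGroup.eq_one_iff n).2 hn, one_mul]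
  have h2 := isIrr_comp_surj hψ _ hs
  have h3 : (fun g : H => ψ (((QuotientGroup.mk' N).comp H.subtype) g)) = fun x : H => χ x := by
    funext x
    exact hψχ x
  rwa [h3] at h2

/-- The conclusion of the Broline-Garrison theorem. -/
def Concl (χ : G → ℂ) (K : Subgroup G) : Prop :=
  ∃ ψ : IrrCharacter G, charDegree χ < charDegree (ψ : G → ℂ) ∧
    ∃ L : Subgroup G, (∀ g : G, g ∈ L ↔ (ψ : G → ℂ) g = (ψ : G → ℂ) 1) ∧ L < K

theorem restrict_eq_of_constituent {χ : G → ℂ} (hχ : IsIrrCharacter G χ) (K : Subgroup G)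
    [K.Normal] (hK : ∀ g : G, g ∈ K ↔ χ g = χ 1) (H : Subgroup G) (hH : IsCoatom H)
    (hKH : ¬ K ≤ H) (hno : ¬ Concl χ K) (ψ : IrrCharacter G)
    (hψ : classInner (indFun H (fun x : H => χ x)) (ψ : G → ℂ) ≠ 0) :
    ∀ h : H, (ψ : G → ℂ) h = χ h := by
  classical
  have hsup : K ⊔ H = ⊤ := by
    refine hH.2 _ (lt_of_le_of_ne le_sup_right ?_)
    intro h
    exact hKH (h ▸ le_sup_left)
  have hϑ : IsIrrCharacter H (fun x : H => χ x) :=
    isIrr_restrict_of_sup hχ K (fun x hx => (hK x).1 hx) H hsup
  have hψc : IsCharacter G (ψ : G → ℂ) := isIrr_isChar ψ.2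
  have hψH : IsCharacter H (fun x : H => (ψ : G → ℂ) x) := isChar_comp_hom hψc H.subtype
  rw [Cfsg.Agent.Lib.Helper19.frobenius_reciprocity H _ _ (isChar_isClassFunction hψc),
    ← classInner_conj_symm] at hψ
  have hψ' : classInner (fun x : H => (ψ : G → ℂ) x) (fun x : H => χ x) ≠ 0 := by
    simpa using hψ
  have hdeg1 : charDegree (fun x : H => (ψ : G → ℂ) x) = charDegree (ψ : G → ℂ) := rfl
  have hdeg2 : charDegree (fun x : H => χ x) = charDegree χ := rfl
  have heq : (fun x : H => (ψ : G → ℂ) x) = fun x : H => χ x := by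
    by_cases hlt : charDegree χ < charDegree (ψ : G → ℂ)
    · by_cases hNH : charKer (ψ : G → ℂ) hψc ≤ H
      · exfalso
        refine hno ⟨ψ, hlt, charKer (ψ : G → ℂ) hψc, fun g => Iff.rfl, lt_of_le_of_ne ?_ ?_⟩
        · intro n hn
          have hnH := hNH hn
          have h1 : (fun x : H => (ψ : G → ℂ) x) ⟨n, hnH⟩ = (fun x : H => (ψ : G → ℂ) x) 1 := hn
          have h2 := Cfsg.Agent.Lib.Helper32.ker_of_constituent hψH hϑ hψ' h1
          exact (hK n).2 h2
        · intro h
          exact hKH (h ▸ hNH)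
      · have hsup2 : charKer (ψ : G → ℂ) hψc ⊔ H = ⊤ := by
          refine hH.2 _ (lt_of_le_of_ne le_sup_right ?_)
          intro h
          exact hNH (h ▸ le_sup_left)
        have : (charKer (ψ : G → ℂ) hψc).Normal := charKer_normal _ _
        have hirr : IsIrrCharacter H (fun x : H => (ψ : G → ℂ) x) :=
          isIrr_restrict_of_sup ψ.2 (charKer (ψ : G → ℂ) hψc) (fun x hx => hx) H hsup2
        by_contra hne
        exact hψ' (classInner_irr_ne hirr hϑ hne)
    · exact eq_of_constituent_of_degree_le hψH hϑ hψ' (by rw [hdeg1, hdeg2]; omega)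
  intro h
  exact congrFun heq h

/-- The key dichotomy: for a maximal subgroup `H` not containing `K = ker χ`, either the conclusion
of Broline-Garrison holds, or `χ` vanishes on `H` off the normal core of `H`. -/
theorem key {χ : G → ℂ} (hχ : IsIrrCharacter G χ) (K : Subgroup G)
    [K.Normal] (hK : ∀ g : G, g ∈ K ↔ χ g = χ 1) (H : Subgroup G) (hH : IsCoatom H)
    (hKH : ¬ K ≤ H) (hno : ¬ Concl χ K) :
    ∀ h ∈ H, χ h ≠ 0 → h ∈ H.normalCore := by
  classical
  intro h hh hχh
  have hres := restrict_eq_of_constituent hχ K hK H hH hKH hno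
  have hχc : IsCharacter G χ := isIrr_isChar hχ
  have hϑc : IsCharacter H (fun x : H => χ x) := isChar_comp_hom hχc H.subtype
  have hΘ : IsCharacter G (indFun H (fun x : H => χ x)) :=
    Cfsg.Agent.Lib.Helper19.isCharacter_indFun H _ hϑc
  obtain ⟨l, hl⟩ := exists_multiset_of_isCharacter hΘ
  have hmem : ∀ ψ ∈ l, ∀ y : H, (ψ : G → ℂ) y = χ y := by
    intro ψ hψ
    apply hres ψ
    rw [hl, classInner_multiset_sum]
    exact_mod_cast (Multiset.count_pos.2 hψ).ne'
  have hval : ∀ y : H, indFun H (fun x : H => χ x) y = (Multiset.card l : ℂ) * χ y := by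
    intro y
    rw [hl]
    have : ∀ (l : Multiset (IrrCharacter G)), (∀ ψ ∈ l, ∀ y : H, (ψ : G → ℂ) y = χ y) →
        (l.map Subtype.val).sum (y : G) = (Multiset.card l : ℂ) * χ y := by
      intro l
      induction l using Multiset.induction_on with
      | empty => intro _; simp
      | cons a l ih =>
        intro hl
        rw [Multiset.map_cons, Multiset.sum_cons, Pi.add_apply,
          ih (fun ψ hψ => hl ψ (Multiset.mem_cons_of_mem hψ)), hl a (Multiset.mem_cons_self a l) y,
          Multiset.card_cons]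
        push_cast
        ring
    exact this l hmem
  have hχ1 : χ 1 ≠ 0 := isIrr_one_ne_zero hχ
  have hcard : (Multiset.card l : ℂ) = (H.index : ℂ) := by
    have h1 := hval 1
    rw [OneMemClass.coe_one, indFun_one] at h1
    exact (mul_right_cancel₀ hχ1 h1).symm
  have h2 := hval ⟨h, hh⟩
  rw [hcard, Cfsg.Agent.Lib.Helper19.indFun_apply] at h2
  have h3 : ∀ x : G, extendByZero H (fun x : H => χ x) (x⁻¹ * h * x) =
      if x⁻¹ * h * x ∈ H then χ h else 0 := by
    intro x
    split_ifs with hx
    · rw [Cfsg.Agent.Lib.Helper19.extendByZero_of_mem H _ hx]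
      have := isChar_conj_eq hχc h x⁻¹
      rw [inv_inv] at this
      exact this
    · rw [Cfsg.Agent.Lib.Helper19.extendByZero_of_not_mem H _ hx]
  simp only [h3] at h2
  rw [← Finset.sum_filter, Finset.sum_const, nsmul_eq_mul] at h2
  have hHne : (Nat.card H : ℂ) ≠ 0 := by exact_mod_cast Nat.card_pos.ne'
  have h4 : ((Finset.univ.filter (fun x : G => x⁻¹ * h * x ∈ H)).card : ℂ) =
      (Nat.card H : ℂ) * (H.index : ℂ) := by
    have h5 : ((Finset.univ.filter (fun x : G => x⁻¹ * h * x ∈ H)).card : ℂ) * χ h =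
        (Nat.card H : ℂ) * (H.index : ℂ) * χ h := by
      have h6 := congrArg (fun z => (Nat.card H : ℂ) * z) h2
      rw [mul_inv_cancel_left₀ hHne] at h6
      rw [h6]; ring
    exact mul_right_cancel₀ hχh h5
  have h5 : (Finset.univ.filter (fun x : G => x⁻¹ * h * x ∈ H)).card = Fintype.card G := by
    have : (Finset.univ.filter (fun x : G => x⁻¹ * h * x ∈ H)).card = Nat.card H * H.index := by
      exact_mod_cast h4
    rw [this, H.card_mul_index, Nat.card_eq_fintype_card]
  have h6 : Finset.univ.filter (fun x : G => x⁻¹ * h * x ∈ H) = Finset.univ :=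
    Finset.eq_univ_of_card _ h5
  intro b
  have h7 : b⁻¹ ∈ Finset.univ.filter (fun x : G => x⁻¹ * h * x ∈ H) := by
    rw [h6]; exact Finset.mem_univ _
  have h8 := (Finset.mem_filter.1 h7).2
  rwa [inv_inv] at h8

end core

section groups
variable {G : Type*} [Group G] [Finite G]

/-- Frattini argument for a normal subgroup `T` between a Sylow subgroup of `M` and `M`. -/
theorem frattini_inter {p : ℕ} [Fact p.Prime] (M : Subgroup G) (P : Sylow p M)
    (T : Subgroup G) [T.Normal] (hT : T ≤ M) (hPT : (P : Subgroup M).map M.subtype ≤ T) :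
    Subgroup.normalizer (((P : Subgroup M).map M.subtype : Subgroup G) : Set G) ⊔ T = ⊤ := by
  set P' : Subgroup G := (P : Subgroup M).map M.subtype with hP'
  have hPp : IsPGroup p P' := P.2.map _
  have h1 : IsPGroup p (P'.subgroupOf T) := hPp.comap_subtype
  obtain ⟨Q, hQ⟩ := h1.exists_le_sylow
  have hQ' : (Q : Subgroup T).map T.subtype = P' := by
    have hle : P' ≤ (Q : Subgroup T).map T.subtype := by
      intro x hx
      exact ⟨⟨x, hPT hx⟩, hQ (Subgroup.mem_subgroupOf.2 hx), rfl⟩
    have hQp : IsPGroup p ((Q : Subgroup T).map T.subtype) := Q.2.map _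
    have hQM : (Q : Subgroup T).map T.subtype ≤ M := by
      rintro _ ⟨y, -, rfl⟩
      exact hT y.2
    have h2 : ((Q : Subgroup T).map T.subtype).subgroupOf M = P := by
      apply P.3 hQp.comap_subtype
      intro x hx
      exact Subgroup.mem_subgroupOf.2 (hle ⟨x, hx, rfl⟩)
    rw [hP', ← h2, Subgroup.subgroupOf_map_subtype, inf_of_le_left hQM]
  have := Sylow.normalizer_sup_eq_top Q
  rwa [hQ'] at this

end groups

section main
variable {G : Type*} [Group G] [Fintype G]

theorem false_of_sylow (K : Subgroup G)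
    {q : ℕ} [Fact q.Prime] (M : Subgroup G) [M.Normal] (Q : Sylow q M)
    (h1 : Subgroup.normalizer (((Q : Subgroup M).map M.subtype : Subgroup G) : Set G) ⊔ K = ⊤)
    (h2 : Subgroup.normalizer (((Q : Subgroup M).map M.subtype : Subgroup G) : Set G) ≠ ⊤)
    (h3 : ∀ H : Subgroup G, IsCoatom H → ¬ K ≤ H → M ⊓ H ≤ H.normalCore) : False := by
  obtain ⟨H, hH, hle⟩ := (eq_top_or_exists_le_coatom _).resolve_left h2
  have hKH : ¬ K ≤ H := by
    intro h
    apply hH.1
    rw [eq_top_iff, ← h1]
    exact sup_le hle h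
  have h4 := h3 H hH hKH
  have hQM : (Q : Subgroup M).map M.subtype ≤ M := by
    rintro _ ⟨y, -, rfl⟩
    exact y.2
  have hQH : (Q : Subgroup M).map M.subtype ≤ H := Subgroup.le_normalizer.trans hle
  have h5 := frattini_inter M Q (M ⊓ H.normalCore) inf_le_left
    (le_inf hQM ((le_inf hQM hQH).trans h4))
  apply hH.1
  rw [eq_top_iff, ← h5]
  exact sup_le hle (inf_le_right.trans (Subgroup.normalCore_le H))

theorem broline_garrison {χ : G → ℂ} (hχ : IsIrrCharacter G χ) (K : Subgroup G) [K.Normal]
    (hK : ∀ g : G, g ∈ K ↔ χ g = χ 1)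
    (h : ¬ K ≤ Cfsg.fittingSubgroup G ∨
      (K = Cfsg.fittingSubgroup G ∧ Group.IsSolvable (G ⧸ K) ∧ K ≠ ⊤)) : Concl χ K := by
  classical
  by_contra hno
  have hχ1 : χ 1 ≠ 0 := isIrr_one_ne_zero hχ
  have hχc : IsCharacter G χ := isIrr_isChar hχ
  have hkey := fun H hH hKH => key hχ K hK H hH hKH hno
  have hKcore : ∀ H : Subgroup G, IsCoatom H → ¬ K ≤ H → K ⊓ H ≤ H.normalCore := by
    intro H hH hKH x hx
    refine hkey H hH hKH x hx.2 ?_
    rw [(hK x).1 hx.1]
    exact hχ1
  rcases h with h | ⟨hKF, hsolv, hKtop⟩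
  · -- `K` is not nilpotent
    have hnil : ¬ Group.IsNilpotent K := by
      intro hn
      exact h (le_sSup ⟨inferInstance, hn⟩)
    have h1 : ¬ ∀ (p : ℕ) (_hp : Fact p.Prime) (P : Sylow p K), (P : Subgroup K).Normal := by
      intro h2
      exact hnil (((Group.isNilpotent_of_finite_tfae (G := K)).out 0 3).2 h2)
    push Not at h1
    obtain ⟨p, hp, P, hP⟩ := h1
    refine false_of_sylow K K P (Sylow.normalizer_sup_eq_top P) ?_ hKcore
    intro htop
    apply hP
    have hn : ((P : Subgroup K).map K.subtype).Normal := Subgroup.normalizer_eq_top_iff.1 htop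
    have h3 : (P : Subgroup K) = ((P : Subgroup K).map K.subtype).subgroupOf K := by
      rw [Subgroup.subgroupOf, Subgroup.comap_map_eq_self_of_injective K.subtype_injective]
    rw [h3]
    infer_instance
  · -- `K = F(G)`
    set D : Subgroup G := Subgroup.normalClosure {g | χ g ≠ 0} with hD
    have hDle : ∀ H : Subgroup G, IsCoatom H → ¬ K ≤ H → D ≤ H.normalCore ⊔ K := by
      intro H hH hKH
      apply Subgroup.normalClosure_le_normal
      intro g hg
      have hsup : H ⊔ K = ⊤ := by
        refine hH.2 _ (lt_of_le_of_ne le_sup_left ?_)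
        intro h
        exact hKH (h ▸ le_sup_right)
      have hg' : g ∈ ((H ⊔ K : Subgroup G) : Set G) := by rw [hsup]; trivial
      rw [Subgroup.mul_normal] at hg'
      obtain ⟨y, hy, k, hk, rfl⟩ := Set.mem_mul.1 hg'
      have h2 : χ (y * k) = χ y := isChar_mul_of_mem_ker hχc ((hK k).1 hk) y
      have h3 : χ y ≠ 0 := by rw [← h2]; exact hg
      exact Subgroup.mul_mem_sup (hkey H hH hKH y hy h3) hk
    have hDK : ¬ D ≤ K := by
      intro hDK
      have hvan : ∀ g, g ∉ K → χ g = 0 := by
        intro g hg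
        by_contra h0
        exact hg (hDK (Subgroup.subset_normalClosure h0))
      have hne : χ ≠ (1 : G → ℂ) := by
        intro h1
        apply hKtop
        rw [eq_top_iff]
        intro g _
        rw [hK, h1]
        rfl
      have h0 := classInner_irr_ne hχ Cfsg.Agent.Lib.Helper4.isIrrCharacter_one hne
      unfold classInner at h0
      have hG : (Nat.card G : ℂ)⁻¹ ≠ 0 := by
        apply inv_ne_zero
        exact_mod_cast Nat.card_pos.ne'
      have h1 := (mul_eq_zero.1 h0).resolve_left hG
      have h2 : ∑ g : G, χ g * (starRingEnd ℂ) ((fun _ => 1 : G → ℂ) g) =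
          ∑ g : G, if g ∈ K then χ 1 else 0 := by
        apply Finset.sum_congr rfl
        intro g _
        split_ifs with hg
        · simp [(hK g).1 hg]
        · simp [hvan g hg]
      rw [h2, ← Finset.sum_filter, Finset.sum_const, nsmul_eq_mul] at h1
      rcases mul_eq_zero.1 h1 with h3 | h3
      · have h4 : (Finset.univ.filter (fun g : G => g ∈ K)).card = 0 := by exact_mod_cast h3
        rw [Finset.card_eq_zero] at h4
        have : (1 : G) ∈ Finset.univ.filter (fun g : G => g ∈ K) := by simp [K.one_mem]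
        rw [h4] at this
        simp at this
      · exact hχ1 h3
    have hDbar : D.map (QuotientGroup.mk' K) ≠ ⊥ := by
      intro h0
      apply hDK
      rw [Subgroup.map_eq_bot_iff, QuotientGroup.ker_mk'] at h0
      exact h0
    have hDn : (D.map (QuotientGroup.mk' K)).Normal :=
      Subgroup.Normal.map inferInstance _ (QuotientGroup.mk'_surjective K)
    obtain ⟨Mb, hMbD, hMb⟩ := Cfsg.Agent.Lib.Helper12.exists_minNormal_le _ hDn hDbar
    obtain ⟨q, hq, hMq, -⟩ := hMb.exists_isPGroup
    have : Fact q.Prime := ⟨hq⟩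
    have hMbn : Mb.Normal := hMb.1
    set M : Subgroup G := Mb.comap (QuotientGroup.mk' K) with hM
    have hKD : K ≤ D := by
      intro k hk
      apply Subgroup.subset_normalClosure
      show χ k ≠ 0
      rw [(hK k).1 hk]
      exact hχ1
    have hKM : K ≤ M := by
      intro k hk
      rw [hM, Subgroup.mem_comap, QuotientGroup.mk'_apply, (QuotientGroup.eq_one_iff k).2 hk]
      exact Mb.one_mem
    have hMD : M ≤ D := by
      intro x hx
      obtain ⟨d, hd, hdx⟩ := hMbD (Subgroup.mem_comap.1 hx)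
      have h1 : d⁻¹ * x ∈ K := by
        rw [← QuotientGroup.eq_one_iff, QuotientGroup.mk_mul, QuotientGroup.mk_inv]
        rw [QuotientGroup.mk'_apply, QuotientGroup.mk'_apply] at hdx
        rw [hdx, inv_mul_cancel]
      have : x = d * (d⁻¹ * x) := by group
      rw [this]
      exact D.mul_mem hd (hKD h1)
    have hMK : ¬ M ≤ K := by
      intro h0
      apply hMb.2.1
      rw [eq_bot_iff]
      intro y hy
      obtain ⟨x, rfl⟩ := QuotientGroup.mk'_surjective K y
      have : x ∈ K := h0 (Subgroup.mem_comap.2 hy)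
      rw [Subgroup.mem_bot, QuotientGroup.mk'_apply, (QuotientGroup.eq_one_iff x).2 this]
    obtain ⟨Q⟩ : Nonempty (Sylow q M) := inferInstance
    set Q' : Subgroup G := (Q : Subgroup M).map M.subtype with hQ'
    have hQM : Q' ≤ M := by
      rintro _ ⟨y, -, rfl⟩
      exact y.2
    -- `M = K Q'`
    have hMKQ : M ≤ K ⊔ Q' := by
      rw [← Subgroup.relIndex_eq_one]
      have hd1 : (K ⊔ Q').relIndex M ∣ K.relIndex M :=
        Subgroup.relIndex_dvd_of_le_left M le_sup_left
      have hd2 : (K ⊔ Q').relIndex M ∣ Q'.relIndex M :=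
        Subgroup.relIndex_dvd_of_le_left M le_sup_right
      have hp1 : ∃ n, K.relIndex M = q ^ n := by
        have hpg : IsPGroup q (M ⧸ K.subgroupOf M) := by
          intro y
          obtain ⟨x, rfl⟩ := QuotientGroup.mk'_surjective _ y
          obtain ⟨k, hk⟩ := hMq ⟨QuotientGroup.mk' K x, x.2⟩
          refine ⟨k, ?_⟩
          rw [QuotientGroup.mk'_apply, ← QuotientGroup.mk_pow, QuotientGroup.eq_one_iff,
            Subgroup.mem_subgroupOf]
          have h5 := congrArg Subtype.val hk
          simp only [Subgroup.coe_pow, Subgroup.coe_one, QuotientGroup.mk'_apply] at h5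
          rw [← QuotientGroup.mk_pow, QuotientGroup.eq_one_iff] at h5
          simpa using h5
        obtain ⟨n, hn⟩ := IsPGroup.iff_card.1 hpg
        exact ⟨n, by rw [Subgroup.relIndex, Subgroup.index_eq_card, hn]⟩
      have hp2 : ¬ q ∣ Q'.relIndex M := by
        have : Q'.relIndex M = (Q : Subgroup M).index := by
          rw [Subgroup.relIndex, hQ', Subgroup.subgroupOf,
            Subgroup.comap_map_eq_self_of_injective M.subtype_injective]
        rw [this]
        exact Q.not_dvd_index
      obtain ⟨n, hn⟩ := hp1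
      rw [hn] at hd1
      obtain ⟨k, -, hk⟩ := (Nat.dvd_prime_pow hq).1 hd1
      rcases Nat.eq_zero_or_pos k with rfl | hkpos
      · simpa using hk
      · exfalso
        apply hp2
        refine dvd_trans ?_ hd2
        rw [hk]
        exact dvd_pow_self q hkpos.ne'
    have hfr := Sylow.normalizer_sup_eq_top Q
    refine false_of_sylow K M Q ?_ ?_ ?_
    · rw [eq_top_iff, ← hfr]
      refine sup_le le_sup_left (hMKQ.trans (sup_le le_sup_right ?_))
      exact Subgroup.le_normalizer.trans le_sup_left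
    · intro htop
      have hn : Q'.Normal := Subgroup.normalizer_eq_top_iff.1 htop
      have hQp : IsPGroup q Q' := Q.2.map _
      have hQK : Q' ≤ K := by
        rw [hKF]
        exact le_sSup ⟨hn, hQp.isNilpotent⟩
      exact hMK (hMKQ.trans (sup_le le_rfl hQK))
    · intro H hH hKH x hx
      have h1 : x ∈ ((H.normalCore ⊔ K : Subgroup G) : Set G) := hDle H hH hKH (hMD hx.1)
      rw [Subgroup.mul_normal] at h1
      obtain ⟨c, hc, k, hk, rfl⟩ := Set.mem_mul.1 h1
      have hcH : c ∈ H := Subgroup.normalCore_le H hc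
      have hkH : k ∈ H := by
        have := H.mul_mem (H.inv_mem hcH) hx.2
        rwa [inv_mul_cancel_left] at this
      exact (H.normalCore).mul_mem hc (hKcore H hH hKH ⟨hk, hkH⟩)

end main

end Cfsg.Agent.Lib.Helper51.BroGar
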