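import Mathlib
import Cfsg.Agent.Lib.Helper51.BroGar

set_option autoImplicit false

/-! Garrison's theorem (Isaacs 12.21): nilpotent length ≤ number of character degrees. -/

namespace Cfsg.Agent.Lib.Helper51.Garrison

open Cfsg Cfsg.Agent.Lib.Helper82 Cfsg.Agent.Lib.Helper20 Cfsg.Agent.Lib.Helper51.BroGar

variable {G : Type*} [Group G]

/-- preimage of the Fitting subgroup of `G ⧸ N`. -/
def fitOver (N : Subgroup G) [N.Normal] : Subgroup G :=
  (Cfsg.fittingSubgroup (G ⧸ N)).comap (QuotientGroup.mk' N)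

instance fitOver_normal (N : Subgroup G) [N.Normal] : (fitOver N).Normal := by
  have := Cfsg.Agent.Lib.Helper74.fittingSubgroup_normal (G ⧸ N)
  unfold fitOver
  infer_instance

theorem le_fitOver (N : Subgroup G) [N.Normal] : N ≤ fitOver N := by
  intro x hx
  unfold fitOver
  rw [Subgroup.mem_comap, QuotientGroup.mk'_apply, (QuotientGroup.eq_one_iff x).2 hx]
  exact Subgroup.one_mem _

/-- the upper Fitting series. -/
def fitSer (G : Type*) [Group G] : ℕ → {N : Subgroup G // N.Normal}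
  | 0 => ⟨⊥, inferInstance⟩
  | n + 1 => ⟨@fitOver G _ (fitSer G n).1 (fitSer G n).2, @fitOver_normal G _ _ (fitSer G n).2⟩

theorem fitSer_le_succ (n : ℕ) : (fitSer G n).1 ≤ (fitSer G (n + 1)).1 :=
  @le_fitOver G _ (fitSer G n).1 (fitSer G n).2

theorem fitSer_mono : Monotone (fun n => (fitSer G n).1) :=
  monotone_nat_of_le_succ fitSer_le_succ

theorem step [Finite G] (hsolv : Group.IsSolvable G) (N : Subgroup G) [N.Normal]
    (χ : IrrCharacter G) (hF : ∀ x ∈ fitOver N, (χ : G → ℂ) x = (χ : G → ℂ) 1)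
    (hne : fitOver N ≠ ⊤) :
    ∃ ψ : IrrCharacter G, (∀ x ∈ N, (ψ : G → ℂ) x = (ψ : G → ℂ) 1) ∧
      charDegree (χ : G → ℂ) < charDegree (ψ : G → ℂ) := by
  classical
  have : Fintype (G ⧸ N) := Fintype.ofFinite _
  obtain ⟨χb, hχb, hval⟩ := isIrr_deflate χ.2 N (fun x hx => hF x (le_fitOver N hx))
  have hχbc := isIrr_isChar hχb
  have hFK : Cfsg.fittingSubgroup (G ⧸ N) ≤ charKer χb hχbc := by
    intro y hy
    obtain ⟨x, rfl⟩ := QuotientGroup.mk'_surjective N y
    rw [mem_charKer]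
    have h1 : χb ((1 : G) : G ⧸ N) = (χ : G → ℂ) 1 := hval 1
    rw [QuotientGroup.mk'_apply, hval x, hF x hy, ← h1]
    rfl
  have hcase : ¬ charKer χb hχbc ≤ Cfsg.fittingSubgroup (G ⧸ N) ∨
      (charKer χb hχbc = Cfsg.fittingSubgroup (G ⧸ N) ∧
        Group.IsSolvable ((G ⧸ N) ⧸ charKer χb hχbc) ∧ charKer χb hχbc ≠ ⊤) := by
    by_cases hle : charKer χb hχbc ≤ Cfsg.fittingSubgroup (G ⧸ N)
    · right
      have heq := le_antisymm hle hFK
      refine ⟨heq, inferInstance, ?_⟩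
      intro htop
      apply hne
      unfold fitOver
      rw [← heq, htop, Subgroup.comap_top]
    · exact Or.inl hle
  obtain ⟨ψb, hlt, -⟩ := broline_garrison hχb (charKer χb hχbc) (fun g => Iff.rfl) hcase
  refine ⟨⟨fun g => (ψb : G ⧸ N → ℂ) (g : G ⧸ N), isIrr_inflate ψb.2⟩, ?_, ?_⟩
  · intro x hx
    show (ψb : G ⧸ N → ℂ) (x : G ⧸ N) = (ψb : G ⧸ N → ℂ) ((1 : G) : G ⧸ N)
    rw [(QuotientGroup.eq_one_iff x).2 hx]
    rfl
  · have h1 : charDegree (χ : G → ℂ) = charDegree χb := by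
      unfold charDegree
      rw [← hval 1]
      rfl
    rw [h1]
    exact hlt

/-- degrees at most `m`. -/
def degLe (G : Type*) [Group G] (m : ℕ) : Set ℕ :=
  {d | (∃ χ : IrrCharacter G, charDegree (χ : G → ℂ) = d) ∧ d ≤ m}

theorem degLe_finite (m : ℕ) : (degLe G m).Finite :=
  (Set.finite_Iic m).subset (fun _ hd => hd.2)

theorem chain [Finite G] (hsolv : Group.IsSolvable G) (j : ℕ) (hj : (fitSer G j).1 ≠ ⊤) :
    ∀ k : ℕ, k ≤ j → ∃ χ : IrrCharacter G,
      (∀ x ∈ (fitSer G (j - k)).1, (χ : G → ℂ) x = (χ : G → ℂ) 1) ∧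
      k + 1 ≤ (degLe G (charDegree (χ : G → ℂ))).ncard := by
  intro k
  induction k with
  | zero =>
    intro _
    refine ⟨⟨fun _ => 1, Cfsg.Agent.Lib.Helper4.isIrrCharacter_one⟩, fun _ _ => rfl, ?_⟩
    rw [zero_add, Nat.succ_le_iff, Set.ncard_pos (degLe_finite _)]
    exact ⟨_, ⟨⟨_, rfl⟩, le_rfl⟩⟩
  | succ k ih =>
    intro hk
    obtain ⟨χ, hχ, hcard⟩ := ih (by omega)
    have hidx : j - k = (j - (k + 1)) + 1 := by omega
    have hn : (fitSer G (j - (k + 1))).1.Normal := (fitSer G (j - (k + 1))).2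
    have hF : ∀ x ∈ fitOver (fitSer G (j - (k + 1))).1, (χ : G → ℂ) x = (χ : G → ℂ) 1 := by
      intro x hx
      apply hχ x
      rw [hidx]
      exact hx
    have hne : fitOver (fitSer G (j - (k + 1))).1 ≠ ⊤ := by
      intro htop
      apply hj
      rw [eq_top_iff, ← htop]
      have : (fitSer G ((j - (k + 1)) + 1)).1 ≤ (fitSer G j).1 := fitSer_mono (by omega)
      exact this
    obtain ⟨ψ, hψ, hlt⟩ := step hsolv _ χ hF hne
    refine ⟨ψ, hψ, ?_⟩
    have hsub : insert (charDegree (ψ : G → ℂ)) (degLe G (charDegree (χ : G → ℂ))) ⊆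
        degLe G (charDegree (ψ : G → ℂ)) := by
      intro d hd
      rcases Set.mem_insert_iff.1 hd with rfl | hd
      · exact ⟨⟨ψ, rfl⟩, le_rfl⟩
      · exact ⟨hd.1, hd.2.trans hlt.le⟩
    have hnot : charDegree (ψ : G → ℂ) ∉ degLe G (charDegree (χ : G → ℂ)) := by
      intro h
      exact absurd h.2 (by omega)
    have h1 := Set.ncard_le_ncard hsub (degLe_finite _)
    rw [Set.ncard_insert_of_notMem hnot (degLe_finite _)] at h1
    omega

theorem fitSer_eq_top [Finite G] (hsolv : Group.IsSolvable G) (n : ℕ)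
    (hcd : Nat.card {d : ℕ // ∃ χ : IrrCharacter G, charDegree (χ : G → ℂ) = d} = n) :
    (fitSer G n).1 = ⊤ := by
  classical
  by_contra hne
  obtain ⟨χ, -, hcard⟩ := chain hsolv n hne n le_rfl
  have : Fintype G := Fintype.ofFinite G
  have hfin : Finite (IrrCharacter G) := Cfsg.Agent.Lib.Helper20.finite_irrCharacter
  have hfin2 : {d : ℕ | ∃ χ : IrrCharacter G, charDegree (χ : G → ℂ) = d}.Finite :=
    Set.finite_range (fun χ : IrrCharacter G => charDegree (χ : G → ℂ))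
  have hsub : degLe G (charDegree (χ : G → ℂ)) ⊆
      {d : ℕ | ∃ χ : IrrCharacter G, charDegree (χ : G → ℂ) = d} := fun _ hd => hd.1
  have h1 := Set.ncard_le_ncard hsub hfin2
  have h2 : {d : ℕ | ∃ χ : IrrCharacter G, charDegree (χ : G → ℂ) = d}.ncard = n := hcd
  omega

theorem quot_nilpotent [Finite G] (N : Subgroup G) [N.Normal]
    (h : (N.subgroupOf (fitOver N)).Normal) :
    Group.IsNilpotent (↥(fitOver N) ⧸ N.subgroupOf (fitOver N)) := by
  have hnil := Cfsg.Agent.Lib.Helper74.fittingSubgroup_isNilpotent (G ⧸ N)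
  let φ : ↥(fitOver N) →* ↥(Cfsg.fittingSubgroup (G ⧸ N)) :=
    ((QuotientGroup.mk' N).comp (fitOver N).subtype).codRestrict _ (fun x => x.2)
  have hker : ∀ x : ↥(fitOver N), φ x = 1 ↔ x ∈ N.subgroupOf (fitOver N) := by
    intro x
    rw [Subgroup.mem_subgroupOf, ← QuotientGroup.eq_one_iff, Subtype.ext_iff]
    rfl
  let f : (↥(fitOver N) ⧸ N.subgroupOf (fitOver N)) →* ↥(Cfsg.fittingSubgroup (G ⧸ N)) :=
    QuotientGroup.lift _ φ (fun x hx => (hker x).2 hx)
  refine Subgroup.isNilpotent_of_ker_le_center f ?_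
  intro y hy
  obtain ⟨x, rfl⟩ := QuotientGroup.mk'_surjective _ y
  have h1 : φ x = 1 := hy
  have h2 := (hker x).1 h1
  rw [QuotientGroup.mk'_apply, (QuotientGroup.eq_one_iff x).2 h2]
  exact Subgroup.one_mem _

end Cfsg.Agent.Lib.Helper51.Garrison
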