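import Mathlib

/-!
# Landau's theorem

The order of a finite group is bounded in terms of its number of conjugacy classes.
-/

set_option autoImplicit false
universe u

namespace Cfsg.Agent.Lib.Helper51

/-- Finitely many solutions of `∑ 1 / f i = r` with `k` unknowns (bounded form). -/
theorem egyptian_bound (k : ℕ) : ∀ r : ℚ, ∃ N : ℕ, ∀ (ι : Type u) [Fintype ι],
    Fintype.card ι = k → ∀ f : ι → ℕ, (∀ i, 0 < f i) → ∑ i, (1 / (f i : ℚ)) = r →
    ∀ i, f i ≤ N := by
  classical
  induction k with
  | zero =>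
    intro r
    refine ⟨0, fun ι _ hι f _ _ i => ?_⟩
    have := Fintype.card_eq_zero_iff.1 hι
    exact this.elim i
  | succ k ih =>
    intro r
    choose N hN using ih
    set B : ℕ := ⌊((k : ℚ) + 1) / r⌋₊ with hB
    refine ⟨B + ∑ n ∈ Finset.range (B + 1), N (r - 1 / (n : ℚ)), fun ι _ hι f hf hsum i => ?_⟩
    have hne : Nonempty ι := ⟨i⟩
    obtain ⟨i₀, hi₀⟩ := Finite.exists_min f
    have hpos : ∀ j, (0 : ℚ) < 1 / (f j : ℚ) := fun j => by
      have : (0 : ℚ) < f j := by exact_mod_cast hf j
      positivity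
    have hr : 0 < r := by
      rw [← hsum]
      exact Finset.sum_pos (fun j _ => hpos j) ⟨i, Finset.mem_univ _⟩
    have hle : r ≤ ((k : ℚ) + 1) / (f i₀ : ℚ) := by
      rw [← hsum]
      calc ∑ j, (1 / (f j : ℚ)) ≤ ∑ _j : ι, (1 / (f i₀ : ℚ)) := by
            apply Finset.sum_le_sum
            intro j _
            have h0 : (0 : ℚ) < f i₀ := by exact_mod_cast hf i₀
            have h1 : (f i₀ : ℚ) ≤ f j := by exact_mod_cast hi₀ j
            exact one_div_le_one_div_of_le h0 h1
        _ = ((k : ℚ) + 1) / (f i₀ : ℚ) := by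
            rw [Finset.sum_const, Finset.card_univ, hι, nsmul_eq_mul]
            push_cast
            ring
    have hfB : f i₀ ≤ B := by
      rw [hB]
      apply Nat.le_floor
      have h0 : (0 : ℚ) < f i₀ := by exact_mod_cast hf i₀
      rw [le_div_iff₀ hr]
      rw [le_div_iff₀ h0] at hle
      linarith
    by_cases hi : i = i₀
    · rw [hi]; exact hfB.trans (Nat.le_add_right _ _)
    · have hcard : Fintype.card {j : ι // j ≠ i₀} = k := by
        rw [Fintype.card_subtype_compl, hι]
        simp
      have hs : ∑ j : {j : ι // j ≠ i₀}, (1 / (f j : ℚ)) = r - 1 / (f i₀ : ℚ) := by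
        rw [← hsum, ← Finset.sum_erase_add _ _ (Finset.mem_univ i₀), add_sub_cancel_right]
        rw [← Finset.sum_subtype (p := fun j => j ≠ i₀) (Finset.univ.erase i₀)
          (fun x => by simp) (fun j => 1 / (f j : ℚ))]
      have h1 := hN (r - 1 / (f i₀ : ℚ)) {j : ι // j ≠ i₀} hcard (fun j => f j) (fun j => hf j) hs
        ⟨i, hi⟩
      refine h1.trans (le_trans ?_ (Nat.le_add_left _ _))
      exact Finset.single_le_sum (f := fun n : ℕ => N (r - 1 / (n : ℚ))) (fun _ _ => Nat.zero_le _)
        (Finset.mem_range.2 (Nat.lt_succ_of_le hfB))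

/-- **Landau's theorem**: the order of a finite group with at most `k` conjugacy classes is
bounded. -/
theorem landau (k : ℕ) : ∃ N : ℕ, ∀ (G : Type u) [Group G] [Finite G],
    Nat.card (ConjClasses G) ≤ k → Nat.card G ≤ N := by
  classical
  choose N hN using fun j : ℕ => egyptian_bound.{u} j 1
  refine ⟨∑ j ∈ Finset.range (k + 1), N j, fun G _ _ hk => ?_⟩
  have : Fintype G := Fintype.ofFinite G
  have : Fintype (ConjClasses G) := Fintype.ofFinite _
  have hG : (0 : ℚ) < Nat.card G := by exact_mod_cast Nat.card_pos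
  have hdvd : ∀ K : ConjClasses G, K.carrier.ncard ∣ Nat.card G := by
    intro K
    obtain ⟨g, rfl⟩ := ConjClasses.mk_surjective K
    · rw [← ConjAct.orbit_eq_carrier_conjClasses]
      have h1 : Nat.card (MulAction.orbit (ConjAct G) g) *
          Nat.card (MulAction.stabilizer (ConjAct G) g) = Nat.card (ConjAct G) := by
        rw [← Nat.card_prod]
        exact Nat.card_congr (MulAction.orbitProdStabilizerEquivGroup (ConjAct G) g)
      have h2 : Nat.card (ConjAct G) = Nat.card G := rfl
      rw [← h2, ← h1, ← Nat.card_coe_set_eq]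
      exact Dvd.intro _ rfl
  have hpos : ∀ K : ConjClasses G, 0 < K.carrier.ncard := by
    intro K
    obtain ⟨g, rfl⟩ := ConjClasses.mk_surjective K
    exact (Set.ncard_pos (Set.toFinite _)).2 ⟨g, ConjClasses.mem_carrier_mk⟩
  have hf : ∀ K : ConjClasses G, 0 < Nat.card G / K.carrier.ncard := fun K =>
    Nat.div_pos (Nat.le_of_dvd Nat.card_pos (hdvd K)) (hpos K)
  have hsum : ∑ K : ConjClasses G, (1 / ((Nat.card G / K.carrier.ncard : ℕ) : ℚ)) = 1 := by
    have h1 : ∀ K : ConjClasses G, (1 / ((Nat.card G / K.carrier.ncard : ℕ) : ℚ))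
        = (K.carrier.ncard : ℚ) / Nat.card G := by
      intro K
      have h0 : (K.carrier.ncard : ℚ) ≠ 0 := by exact_mod_cast (hpos K).ne'
      rw [Nat.cast_div (hdvd K) h0, one_div_div]
    rw [Finset.sum_congr rfl (fun K _ => h1 K), ← Finset.sum_div, div_eq_one_iff_eq hG.ne']
    have := Group.sum_card_conj_classes_eq_card G
    rw [finsum_eq_sum_of_fintype] at this
    exact_mod_cast this
  have h3 := hN (Fintype.card (ConjClasses G)) (ConjClasses G) rfl
    (fun K => Nat.card G / K.carrier.ncard) hf hsum (ConjClasses.mk 1)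
  have h4 : (ConjClasses.mk (1 : G)).carrier.ncard = 1 := by
    rw [Set.ncard_eq_one]
    refine ⟨1, ?_⟩
    ext x
    rw [ConjClasses.mem_carrier_iff_mk_eq, ConjClasses.mk_eq_mk_iff_isConj, Set.mem_singleton_iff]
    constructor
    · intro h; exact (isConj_one_right.1 h.symm)
    · rintro rfl; exact IsConj.refl _
  simp only [h4, Nat.div_one] at h3
  refine h3.trans ?_
  exact Finset.single_le_sum (f := N) (fun _ _ => Nat.zero_le _)
    (Finset.mem_range.2 (Nat.lt_succ_of_le (by rwa [← Nat.card_eq_fintype_card])))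

end Cfsg.Agent.Lib.Helper51
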