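import Mathlib.GroupTheory.Nilpotent
import Mathlib.GroupTheory.PGroup

set_option autoImplicit false

namespace Cfsg.Agent.Lib.Helper51

open scoped commutatorElement

/-- In a nilpotent group, `V ≤ U [V, Q]` with `U` normal forces `V ≤ U`. -/
theorem le_of_le_sup_commutator_top {Q : Type*} [Group Q] [hQ : Group.IsNilpotent Q]
    (U V : Subgroup Q) [hU : U.Normal] (h : V ≤ U ⊔ ⁅V, (⊤ : Subgroup Q)⁆) : V ≤ U := by
  obtain ⟨n, hn⟩ := Subgroup.nilpotent_iff_lowerCentralSeries.1 hQ
  have key : ∀ i, V ≤ U ⊔ (⊤ : Subgroup Q).lowerCentralSeries i := by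
    intro i
    induction i with
    | zero => simp
    | succ i ih =>
      set E := U ⊔ (⊤ : Subgroup Q).lowerCentralSeries (i + 1) with hE
      have hEn : E.Normal := inferInstance
      set C := (Subgroup.center (Q ⧸ E)).comap (QuotientGroup.mk' E) with hC
      have hUC : U ≤ C := by
        intro u hu
        have : (QuotientGroup.mk' E) u = 1 := (QuotientGroup.eq_one_iff u).2 (Subgroup.mem_sup_left hu)
        rw [hC, Subgroup.mem_comap, this]
        exact one_mem _
      have hγC : (⊤ : Subgroup Q).lowerCentralSeries i ≤ C := by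
        intro c hc
        rw [hC, Subgroup.mem_comap, Subgroup.mem_center_iff]
        intro y
        induction y using QuotientGroup.induction_on with
        | H q =>
          have h1 : ⁅c, q⁆ ∈ E := by
            apply Subgroup.mem_sup_right
            rw [Subgroup.lowerCentralSeries_succ]
            exact Subgroup.commutator_mem_commutator hc (Subgroup.mem_top q)
          have h2 : (QuotientGroup.mk' E) ⁅c, q⁆ = 1 := (QuotientGroup.eq_one_iff _).2 h1
          rw [commutatorElement_def, map_mul, map_mul, map_mul, map_inv, map_inv] at h2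
          have h3 : (QuotientGroup.mk' E) c * (QuotientGroup.mk' E) q =
              (QuotientGroup.mk' E) q * (QuotientGroup.mk' E) c := by
            rw [mul_inv_eq_one, mul_inv_eq_iff_eq_mul] at h2
            exact h2
          exact h3.symm
      have hVC : V ≤ C := ih.trans (sup_le hUC hγC)
      have hcomm : ⁅V, (⊤ : Subgroup Q)⁆ ≤ E := by
        rw [Subgroup.commutator_le]
        intro v hv q _
        have h1 := hVC hv
        rw [hC, Subgroup.mem_comap, Subgroup.mem_center_iff] at h1
        have h2 := h1 ((QuotientGroup.mk' E) q)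
        rw [← QuotientGroup.eq_one_iff, commutatorElement_def]
        change (QuotientGroup.mk' E) (v * q * v⁻¹ * q⁻¹) = 1
        rw [map_mul, map_mul, map_mul, map_inv, map_inv, ← h2]
        group
      exact h.trans (sup_le (le_sup_left) hcomm)
  have := key n
  rwa [hn, sup_bot_eq] at this

/-- Ambient-group version: `U ≤ V ≤ Q`, `Q` a nilpotent subgroup normalizing `U`. -/
theorem le_of_le_sup_commutator {X : Type*} [Group X] (Q U V : Subgroup X)
    [hQ : Group.IsNilpotent Q] (hUQ : U ≤ Q) (hVQ : V ≤ Q)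
    (hn : Q ≤ Subgroup.normalizer (U : Set X)) (h : V ≤ U ⊔ ⁅V, Q⁆) : V ≤ U := by
  have hUn : (U.subgroupOf Q).Normal := (Subgroup.normal_subgroupOf_iff_le_normalizer hUQ).2 hn
  have hcQ : ⁅V, Q⁆ ≤ Q := by
    rw [Subgroup.commutator_le]
    intro v hv q hq
    rw [commutatorElement_def]
    exact mul_mem (mul_mem (mul_mem (hVQ hv) hq) (inv_mem (hVQ hv))) (inv_mem hq)
  have e : ⁅V, Q⁆.subgroupOf Q = ⁅V.subgroupOf Q, (⊤ : Subgroup Q)⁆ := by
    apply Subgroup.map_injective Q.subtype_injective
    rw [Subgroup.map_subgroupOf_eq_of_le hcQ, Subgroup.map_commutator,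
      Subgroup.map_subgroupOf_eq_of_le hVQ, ← MonoidHom.range_eq_map, Subgroup.range_subtype]
  have h2 : V.subgroupOf Q ≤ U.subgroupOf Q ⊔ ⁅V.subgroupOf Q, (⊤ : Subgroup Q)⁆ := by
    rw [← e, ← Subgroup.subgroupOf_sup hUQ hcQ]
    exact Subgroup.comap_mono h
  have h3 := le_of_le_sup_commutator_top (U.subgroupOf Q) (V.subgroupOf Q) h2
  intro v hv
  exact h3 (show (⟨v, hVQ hv⟩ : Q) ∈ V.subgroupOf Q from hv)

end Cfsg.Agent.Lib.Helper51
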