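import Cfsg.Agent.S1524
import Cfsg.Agent.S1500
import Cfsg.Agent.S1501
import Cfsg.Agent.S1474
import Cfsg.Agent.S1521
import Cfsg.Agent.Lib.Helper31.FpfNilp
import Cfsg.Agent.Lib.Helper32.DadeCount
import Cfsg.Agent.Lib.Helper32.Zas1

set_option autoImplicit false

namespace Cfsg.Agent.Lib.Helper51.PF12a

open Cfsg Cfsg.Agent.Lib.Helper32 Cfsg.Agent.Lib
open scoped commutatorElement

section dade
variable {G : Type*} [Group G] [Fintype G] (A : Set G) (L : Subgroup G) [Fintype L]
  (H : G → Subgroup G)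

theorem dade_add (α β : L → ℂ) :
    dadeIsometry A L H (α + β) = dadeIsometry A L H α + dadeIsometry A L H β := by
  funext g
  unfold dadeIsometry
  simp only [Pi.add_apply]
  split_ifs <;> simp

theorem dade_zsmul (n : ℤ) (α : L → ℂ) :
    dadeIsometry A L H (n • α) = n • dadeIsometry A L H α := by
  funext g
  unfold dadeIsometry
  simp only [Pi.smul_apply]
  split_ifs <;> simp

theorem dade_isometry (K : Subgroup L) [K.Normal] (hD : DadeHypothesis A L H)
    (hKA : ∀ x : L, x ∈ K → x ≠ 1 → (x : G) ∈ A) :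
    IsLinearIsometryOn (zspanOn (inducedIrrAbove K ⊥) {1}ᶜ) (dadeIsometry A L H) := by
  have key : ∀ α ∈ zspanOn (inducedIrrAbove K ⊥) {1}ᶜ,
      IsGeneralizedCharacter L α ∧ ∀ x : L, (x : G) ∉ A → α x = 0 := by
    intro α hα
    rw [mem_zspanOn_one] at hα
    obtain ⟨a1, a2, _⟩ := zspan_le_goodSub L K hα.1
    refine ⟨a1, fun x hx => ?_⟩
    by_cases hxK : x ∈ K
    · by_cases hx1 : x = 1
      · rw [hx1]; exact hα.2
      · exact absurd (hKA x hxK hx1) hx
    · exact a2 x hxK
  refine ⟨fun α _ β _ => dade_add A L H α β, fun α _ n => dade_zsmul A L H n α, ?_, ?_⟩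
  · intro α hα β hβ
    obtain ⟨a1, a2⟩ := key α hα
    obtain ⟨b1, b2⟩ := key β hβ
    exact (Cfsg.Agent.S1500.result A L H hD α (genChar_isClassFunction a1) a2).1 β
      (genChar_isClassFunction b1) b2
  · intro α hα
    obtain ⟨a1, a2⟩ := key α hα
    exact Cfsg.Agent.S1501.result A L H hD α a1 a2

theorem dade_map_one (hD : DadeHypothesis A L H) (α : L → ℂ) : dadeIsometry A L H α 1 = 0 := by
  apply dadeIsometry_apply_not_mem
  rintro ⟨a, ha, x, u, hu, h⟩
  have h1 : (a : G) * u = 1 := by rw [← h]; group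
  have h2 : u = (a : G)⁻¹ := eq_inv_of_mul_eq_one_right h1
  have h3 : u ∈ H a ⊓ (L ⊓ Subgroup.centralizer ({(a : G)} : Set G)) := by
    refine ⟨hu, ?_, hD.le_centralizer a ha hu⟩
    rw [h2]; exact L.inv_mem a.2
  rw [hD.inf_eq_bot a ha, Subgroup.mem_bot] at h3
  rw [h3, mul_one] at h1
  exact hD.one_not_mem (h1 ▸ ha)

theorem dade_eq_ind (Hs : Subgroup G) (hD : DadeHypothesis A L H)
    (hA : ∀ x : G, x ∈ A ↔ x ∈ Hs ∧ x ≠ 1)
    (hTI : ∀ g : G, g ∉ L → ∀ u ∈ Hs, g * u * g⁻¹ ∈ Hs → u = 1)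
    (α : L → ℂ) (hα : IsClassFunction L α) (hsupp : ∀ x : L, (x : G) ∉ Hs → α x = 0)
    (h1 : α 1 = 0) : indFun L α = dadeIsometry A L H α := by
  funext g
  by_cases hg : g ∈ dadeSupp A L H
  · obtain ⟨a, ha, x, u, hu, h⟩ := hg
    rw [dadeIsometry_apply hD α hα ha hu h]
    have hc := hD.le_centralizer a ha hu
    have huL : u ∈ L := by
      by_contra hcon
      have := hTI u hcon a ((hA a).1 ha).1 (by
        rw [Subgroup.mem_centralizer_singleton_iff] at hc
        rw [hc]; simpa using ((hA a).1 ha).1)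
      exact ((hA a).1 ha).2 this
    have h3 : u ∈ H a ⊓ (L ⊓ Subgroup.centralizer ({(a : G)} : Set G)) := ⟨hu, huL, hc⟩
    rw [hD.inf_eq_bot a ha, Subgroup.mem_bot] at h3
    rw [h3, mul_one] at h
    rw [← Helper19.indFun_isClassFunction L α g x, h]
    exact indFun_ti_apply Hs L hTI α hα hsupp a ((hA a).1 ha).1
      (fun e => ((hA a).1 ha).2 (by rw [e]; rfl))
  · rw [dadeIsometry_apply_not_mem α hg, Helper19.indFun_apply]
    rw [Finset.sum_eq_zero, mul_zero]
    intro x _
    by_cases hm : x⁻¹ * g * x ∈ L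
    · rw [Helper19.extendByZero_of_mem _ _ hm]
      by_contra hne
      apply hg
      have hH : x⁻¹ * g * x ∈ Hs := by
        by_contra hcon
        exact hne (hsupp ⟨_, hm⟩ hcon)
      have hn1 : x⁻¹ * g * x ≠ 1 := by
        intro e
        apply hne
        have : (⟨x⁻¹ * g * x, hm⟩ : L) = 1 := Subtype.ext e
        rw [this, h1]
      exact ⟨⟨_, hm⟩, (hA _).2 ⟨hH, hn1⟩, x⁻¹, 1, (H _).one_mem, by simp⟩
    · exact Helper19.extendByZero_of_not_mem _ _ hm

end dade


/-- a complement acting fixed point freely on a nontrivial normal subgroup, odd order: Z-group -/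
theorem isZGroup_of_fpf {X : Type*} [Group X] [Finite X] (K U : Subgroup X) [K.Normal]
    (hK : K ≠ ⊥) (hodd : Odd (Nat.card X))
    (hfpf : ∀ h ∈ U, h ≠ 1 → ∀ k ∈ K, h * k = k * h → k = 1) : IsZGroup U := by
  constructor
  intro r hr T
  have := Fact.mk hr
  have hle : (T : Subgroup U).map U.subtype ≤ U := Subgroup.map_subtype_le _
  let e : (T : Subgroup U) ≃* (T : Subgroup U).map U.subtype :=
    (T : Subgroup U).equivMapOfInjective _ U.subtype_injective
  have hcyc : IsCyclic ((T : Subgroup U).map U.subtype) := by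
    apply Helper31.fpf_odd_nilpotent_isCyclic _ K
    · rw [Subgroup.normalizer_eq_top]; exact le_top
    · exact hK
    · intro x hx hx1
      rw [eq_bot_iff]
      intro k hkc
      obtain ⟨hk, hc⟩ := Subgroup.mem_inf.1 hkc
      rw [Subgroup.mem_centralizer_singleton_iff] at hc
      rw [Subgroup.mem_bot]
      exact hfpf x (hle hx) hx1 k hk hc.symm
    · exact (T.2.map U.subtype).isNilpotent
    · exact Odd.of_dvd_nat hodd (Subgroup.card_subgroup_dvd_card _)
  exact isCyclic_of_surjective e.symm e.symm.surjective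

theorem S1542_of {G : Type*} [Group G] [Fintype G] (hG : Cfsg.IsMinSimpleOddOrder G)
    (L : Subgroup G) [Fintype L] (hL : IsCoatom L) (hI : Cfsg.IsOfTypeI L)
    (hfrob : ∀ x ∈ Cfsg.fittingHallOf L, x ≠ 1 →
      L ⊓ Subgroup.centralizer ({x} : Set G) ≤ Cfsg.fittingHallOf L)
    (hD : Cfsg.DadeHypothesis (Cfsg.typeA L) L (Cfsg.supportR L)) :
    (∀ χ ∈ Cfsg.inducedIrrAbove (Cfsg.fittingHall L) ⊥, Cfsg.IsIrrCharacter L χ) ∧
      Cfsg.IsCoherent (Cfsg.inducedIrrAbove (Cfsg.fittingHall L) ⊥) {1}ᶜ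
        (Cfsg.dadeIsometry (Cfsg.typeA L) L (Cfsg.supportR L)) := by
  classical
  obtain ⟨hsolvL, hodd, hKbot, hKtop', U, hU1, hc, -, -⟩ := hI.1
  have hmem : ∀ x : L, x ∈ fittingHall L ↔ (x : G) ∈ fittingHallOf L := by
    intro x
    unfold fittingHallOf
    constructor
    · intro hx; exact ⟨x, hx, rfl⟩
    · rintro ⟨y, hy, e⟩
      have : y = x := Subtype.ext e
      exact this ▸ hy
  have hHL : fittingHallOf L ≤ L := Subgroup.map_subtype_le _
  have hinf' : fittingHall L ⊓ U = ⊥ := hc.disjoint.eq_bot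
  have hsup' : fittingHall L ⊔ U = ⊤ := hc.sup_eq_top
  have F2 : ∀ k ∈ fittingHall L, k ≠ 1 → ∀ x : L, x * k = k * x → x ∈ fittingHall L := by
    intro k hk hk1 x hx
    rw [hmem]
    apply hfrob k ((hmem k).1 hk) (fun e => hk1 (Subtype.ext e))
    refine Subgroup.mem_inf.2 ⟨x.2, ?_⟩
    rw [Subgroup.mem_centralizer_singleton_iff]
    exact congrArg Subtype.val hx
  have hfpf' : ∀ h ∈ U, h ≠ 1 → ∀ k ∈ fittingHall L, h * k = k * h → k = 1 := by
    intro h hh h1 k hk hcomm
    by_contra hk1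
    have : h ∈ fittingHall L ⊓ U := ⟨F2 k hk hk1 h hcomm, hh⟩
    rw [hinf', Subgroup.mem_bot] at this
    exact h1 this
  haveI hnilK : Group.IsNilpotent (fittingHall L) := Cfsg.Agent.S1474.fittingHall_nilpotent L
  have hsolv : Group.IsSolvable (fittingHall L) := inferInstance
  have hirr : ∀ χ ∈ Cfsg.inducedIrrAbove (fittingHall L) ⊥, Cfsg.IsIrrCharacter L χ := by
    rintro _ ⟨θ, h0, h1, _, rfl⟩
    exact Cfsg.Agent.S0171.result _ _ hinf' hsup' hfpf' θ h0 h1
  refine ⟨hirr, ?_⟩
  have hKtop : fittingHall L < ⊤ := lt_top_iff_ne_top.2 hKtop'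
  have hK'K : ⁅fittingHall L, fittingHall L⁆ < fittingHall L := by
    apply lt_of_le_of_ne (Subgroup.commutator_le_left _ _)
    intro h
    apply hKbot
    haveI : ((⊥ : Subgroup L).subgroupOf (fittingHall L)).Normal :=
      Subgroup.Normal.subgroupOf inferInstance _
    exact eq_of_commutator_sup_eq ⊥ _ _ bot_le le_rfl inferInstance (by rw [sup_bot_eq]; exact h)
  obtain ⟨x₀, hx₀⟩ : ∃ x₀ : L, x₀ ∉ fittingHall L := by
    by_contra hcon
    push Not at hcon
    exact hKtop.ne (eq_top_iff.2 (fun x _ => hcon x))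
  have hne : (Cfsg.inducedIrrAbove (fittingHall L) ⊥).Nonempty := by
    obtain ⟨χ, hχ, _⟩ := exists_linear_above (fittingHall L) hsolv ⊥ (bot_lt_iff_ne_bot.2 hKbot)
    exact ⟨χ, hχ⟩
  have hconj : ∀ χ ∈ Cfsg.inducedIrrAbove (fittingHall L) ⊥,
      Cfsg.conjFun χ ∈ Cfsg.inducedIrrAbove (fittingHall L) ⊥ ∧ Cfsg.conjFun χ ≠ χ := by
    intro χ hχ
    refine ⟨inducedIrrAbove_conj _ hχ, fun h => ?_⟩
    have h1 := Cfsg.Agent.S0161.result hodd ⟨χ, hirr χ hχ⟩ (by
      intro g
      have := congrFun h g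
      rw [conjFun_apply] at this
      exact Complex.conj_eq_iff_im.1 this)
    obtain ⟨θ, _, _, _, rfl⟩ := hχ
    have h2 := congrFun h1 x₀
    simp only at h2
    rw [indFun_normal_eq_zero _ θ hx₀] at h2
    exact zero_ne_one h2
  have hA : ∀ x : G, x ∈ typeA L ↔ x ∈ fittingHallOf L ∧ x ≠ 1 := by
    intro x
    unfold typeA
    rw [if_pos hI]
    constructor
    · rintro ⟨hxL, hx1, y, hy, hy1, hxy⟩
      refine ⟨hfrob y hy hy1 (Subgroup.mem_inf.2 ⟨hxL, ?_⟩), hx1⟩
      rw [Subgroup.mem_centralizer_singleton_iff]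
      exact hxy
    · rintro ⟨hx, hx1⟩
      exact ⟨hHL hx, hx1, x, hx, hx1, rfl⟩
  have hKA : ∀ x : L, x ∈ fittingHall L → x ≠ 1 → (x : G) ∈ typeA L := by
    intro x hx hx1
    exact (hA x).2 ⟨(hmem x).1 hx, fun e => hx1 (Subtype.ext e)⟩
  obtain ⟨R, hS⟩ := Cfsg.Agent.S1514.result _ hne hirr hconj _
    (dade_isometry (typeA L) L (supportR L) (fittingHall L) hD hKA)
    (fun α _ => dade_map_one (typeA L) L (supportR L) hD α)
  have hfrobq := frob_quot (fittingHall L) ⁅fittingHall L, fittingHall L⁆ hK'K.le F2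
  haveI hbn : ((⊥ : Subgroup L).subgroupOf (fittingHall L)).Normal :=
    Subgroup.Normal.subgroupOf inferInstance _
  by_cases hpp : ∃ p n : ℕ, p.Prime ∧ Nat.card (fittingHall L) = p ^ n
  swap
  · apply Cfsg.Agent.S1521.result (fittingHall L) hsolv _ R hS hodd ⊥ bot_le inferInstance
      ⁅fittingHall L, fittingHall L⁆ (sup_bot_eq _).symm hK'K hKtop hfrobq
    right; right; left
    rw [Subgroup.relIndex_bot_left]
    exact hpp
  by_cases hab : ⁅fittingHall L, fittingHall L⁆ = ⊥
  · apply Cfsg.Agent.S1521.result (fittingHall L) hsolv _ R hS hodd ⊥ bot_le inferInstance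
      ⁅fittingHall L, fittingHall L⁆ (sup_bot_eq _).symm hK'K hKtop hfrobq
    right; right; right; left
    exact hab.le
  obtain ⟨p, n, hp, hcard⟩ := hpp
  have hcardH : Nat.card (fittingHallOf L) = Nat.card (fittingHall L) :=
    Subgroup.card_map_of_injective L.subtype_injective
  rcases hI.2 with hTI | ⟨hcomm, -, -⟩ | ⟨hexp, -⟩
  · -- TI case: the Dade map is ordinary induction
    have hsub : (fittingHallOf L).subgroupOf L = fittingHall L := by
      ext x
      rw [Subgroup.mem_subgroupOf, hmem]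
    have hHn : ∀ x ∈ L, ∀ h ∈ fittingHallOf L, x * h * x⁻¹ ∈ fittingHallOf L := by
      intro x hx h hh
      have h1 : (⟨h, hHL hh⟩ : L) ∈ fittingHall L := (hmem _).2 hh
      have h2 := (fittingHall_normal L).conj_mem _ h1 ⟨x, hx⟩
      exact (hmem _).1 h2
    have hH1 : fittingHallOf L ≠ ⊥ := by
      intro h
      apply hKbot
      rw [eq_bot_iff]
      intro x hx
      have := (hmem x).1 hx
      rw [h, Subgroup.mem_bot] at this
      rw [Subgroup.mem_bot]
      exact Subtype.ext this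
    have hN : Subgroup.normalizer (fittingHallOf L : Set G) = L := by
      have hle : L ≤ Subgroup.normalizer (fittingHallOf L : Set G) := by
        intro x hx
        rw [Subgroup.mem_normalizer_iff]
        intro h
        constructor
        · exact hHn x hx h
        · intro hh
          have := hHn x⁻¹ (L.inv_mem hx) _ hh
          convert this using 1
          group
      by_contra hne
      have htop := hL.2 _ (lt_of_le_of_ne hle (fun e => hne e.symm))
      have hnorm : (fittingHallOf L).Normal := Subgroup.normalizer_eq_top_iff.1 htop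
      haveI := hG.2.1
      rcases hnorm.eq_bot_or_eq_top with h | h
      · exact hH1 h
      · exact hL.1 (top_le_iff.1 (h ▸ hHL))
    have hcoh := Cfsg.Agent.S1524.result (fittingHallOf L) L (U.map L.subtype) hodd hHL
      (Subgroup.map_subtype_le _) hH1
      (by
        intro h
        exact hU1 ((Subgroup.map_eq_bot_iff_of_injective U L.subtype_injective).1 h))
      (Group.nilpotent_of_mulEquiv
        (Subgroup.equivMapOfInjective (fittingHall L) _ L.subtype_injective)) hHn
      (by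
        unfold fittingHallOf
        rw [← Subgroup.map_inf _ _ _ L.subtype_injective, hinf', Subgroup.map_bot])
      (by
        unfold fittingHallOf
        rw [← Subgroup.map_sup, hsup', ← MonoidHom.range_eq_map, Subgroup.range_subtype])
      (by
        rintro _ ⟨w, hw, rfl⟩ hw1 h hh hcm
        have h1 : (⟨h, hHL hh⟩ : L) ∈ fittingHall L := (hmem _).2 hh
        have := hfpf' w hw (fun e => hw1 (by rw [e]; rfl)) _ h1 (Subtype.ext hcm)
        exact congrArg Subtype.val this)
      hTI hN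
    rw [hsub] at hcoh
    obtain ⟨h1, τ₁, hτ₁, hag⟩ := hcoh
    refine ⟨h1, τ₁, hτ₁, fun α hα => (hag α hα).trans ?_⟩
    have hα' := mem_zspanOn_one.1 hα
    obtain ⟨a1, a2, _⟩ := zspan_le_goodSub L (fittingHall L) hα'.1
    exact dade_eq_ind (typeA L) L (supportR L) (fittingHallOf L) hD hA
      (fun g hg => hTI g (by rw [hN]; exact hg)) α (genChar_isClassFunction a1)
      (fun x hx => a2 x (fun h => hx ((hmem x).1 h))) hα'.2
  · exfalso
    apply hab
    rw [Subgroup.commutator_eq_bot_iff_le_centralizer]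
    intro x hx
    rw [Subgroup.mem_centralizer_iff]
    intro y hy
    have := hcomm.is_comm.comm ⟨(y : G), (hmem y).1 hy⟩ ⟨(x : G), (hmem x).1 hx⟩
    have h2 : (y : G) * (x : G) = (x : G) * (y : G) := congrArg Subtype.val this
    exact Subtype.ext h2
  · apply Cfsg.Agent.S1521.result (fittingHall L) hsolv _ R hS hodd ⊥ bot_le inferInstance
      ⁅fittingHall L, fittingHall L⁆ (sup_bot_eq _).symm hK'K hKtop hfrobq
    right; right; right; right
    refine ⟨p, n, hp, by rw [Subgroup.relIndex_bot_left]; exact hcard, ?_⟩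
    have hn0 : n ≠ 0 := by
      rintro rfl
      rw [pow_zero] at hcard
      exact hKbot (Subgroup.card_eq_one.1 hcard)
    have h1 := hexp p hp (by rw [hcardH, hcard]; exact dvd_pow_self p hn0)
    haveI hZU : IsZGroup U := isZGroup_of_fpf (fittingHall L) U hKbot hodd hfpf'
    haveI hZ : IsZGroup (L ⧸ fittingHall L) :=
      IsZGroup.of_surjective (f := (hc.symm.QuotientMulEquiv.symm : U ≃* L ⧸ fittingHall L).toMonoidHom)
        (hc.symm.QuotientMulEquiv.symm).surjective
    rw [IsZGroup.exponent_eq_card] at h1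
    exact h1

end Cfsg.Agent.Lib.Helper51.PF12a
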